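import Mathlib
import Cfsg.Prelude.Def_KGroupFacts
import Cfsg.Agent.Helper21.CentralKer
import Cfsg.Agent.Helper21.CentralImage

/-!
Corestriction for Schur multipliers, via a permutational wreath product.

Let `σ : Γ → G` be a Schur cover and `q : T → Γ` a homomorphism whose image contains `ker σ`
and such that `q ⁻¹ (ker σ)` is central in `T`.  Then there is a homomorphism
`F : ker σ → T` with values in `[T, T]` such that `q (F z) = z ^ |Γ : q T|`.
-/

set_option autoImplicit false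

namespace Cfsg.Agent.Helper27

universe u v w

open scoped IsMulCommutative

/-- Permutational wreath product of `T` by `Γ` acting on `X`. -/
@[ext]
structure PWr (Γ : Type u) (X : Type v) (T : Type w) : Type (max u v w) where
  g : Γ
  w : X → T

namespace PWr

variable {Γ : Type u} {X : Type v} {T : Type w} [Group Γ] [MulAction Γ X] [Group T]

instance instGroupPWr : Group (PWr Γ X T) where
  mul a b := ⟨a.g * b.g, fun x => a.w (b.g • x) * b.w x⟩
  one := ⟨1, fun _ => 1⟩
  inv a := ⟨a.g⁻¹, fun x => (a.w (a.g⁻¹ • x))⁻¹⟩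
  mul_assoc a b c := PWr.ext (mul_assoc a.g b.g c.g) (funext fun x => by
    show a.w (b.g • c.g • x) * b.w (c.g • x) * c.w x
      = a.w ((b.g * c.g) • x) * (b.w (c.g • x) * c.w x)
    rw [mul_smul, mul_assoc])
  one_mul a := PWr.ext (one_mul a.g) (funext fun x => one_mul (a.w x))
  mul_one a := PWr.ext (mul_one a.g) (funext fun x => by
    show a.w ((1 : Γ) • x) * 1 = a.w x
    rw [one_smul, mul_one])
  inv_mul_cancel a := PWr.ext (inv_mul_cancel a.g) (funext fun x => by
    show (a.w (a.g⁻¹ • a.g • x))⁻¹ * a.w x = 1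
    rw [inv_smul_smul, inv_mul_cancel])

theorem mul_g (a b : PWr Γ X T) : (a * b).g = a.g * b.g := rfl
theorem mul_w (a b : PWr Γ X T) (x : X) : (a * b).w x = a.w (b.g • x) * b.w x := rfl
theorem one_g : (1 : PWr Γ X T).g = 1 := rfl
theorem one_w (x : X) : (1 : PWr Γ X T).w x = 1 := rfl
theorem inv_g (a : PWr Γ X T) : a⁻¹.g = a.g⁻¹ := rfl
theorem inv_w (a : PWr Γ X T) (x : X) : a⁻¹.w x = (a.w (a.g⁻¹ • x))⁻¹ := rfl

theorem finite_pwr [Finite Γ] [Finite X] [Finite T] : Finite (PWr Γ X T) :=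
  Finite.of_injective (fun a : PWr Γ X T => (a.g, a.w))
    (fun _ _ h => PWr.ext (congrArg Prod.fst h) (congrArg Prod.snd h))

/-- The projection to `Γ`. -/
def fstHom : PWr Γ X T →* Γ where
  toFun a := a.g
  map_one' := rfl
  map_mul' _ _ := rfl

/-- The "transfer" to the abelianization of `T`. -/
noncomputable def theta [Fintype X] : PWr Γ X T →* Abelianization T where
  toFun a := ∏ x, Abelianization.of (a.w x)
  map_one' := by simp [one_w]
  map_mul' a b := by
    simp only [mul_w, map_mul, Finset.prod_mul_distrib]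
    congr 1
    exact Fintype.prod_equiv (MulAction.toPerm b.g) _ _ (fun x => rfl)

/-- Coercion into the centre (junk value `1` off the centre). -/
noncomputable def cen (u : T) : Subgroup.center T :=
  @dite _ (u ∈ Subgroup.center T) (Classical.propDecidable _) (fun h => ⟨u, h⟩) (fun _ => 1)

theorem cen_eq {u : T} (h : u ∈ Subgroup.center T) : cen u = ⟨u, h⟩ := by
  unfold cen; exact dif_pos h

theorem cen_coe {u : T} (h : u ∈ Subgroup.center T) : ((cen u : Subgroup.center T) : T) = u := by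
  rw [cen_eq h]

theorem cen_mul {u v : T} (hu : u ∈ Subgroup.center T) (hv : v ∈ Subgroup.center T) :
    cen (u * v) = cen u * cen v := by
  rw [cen_eq hu, cen_eq hv, cen_eq (mul_mem hu hv)]; rfl

theorem cen_inv {u : T} (hu : u ∈ Subgroup.center T) : cen u⁻¹ = (cen u)⁻¹ := by
  rw [cen_eq hu, cen_eq (inv_mem hu)]; rfl

theorem cen_one : cen (1 : T) = 1 := by
  rw [cen_eq (one_mem _)]; rfl

/-- Product of the (central) coordinates. -/
noncomputable def psi [Fintype X] (a : PWr Γ X T) : Subgroup.center T := ∏ x, cen (a.w x)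

theorem psi_mul [Fintype X] (a b : PWr Γ X T) (ha : ∀ x, a.w x ∈ Subgroup.center T)
    (hb : ∀ x, b.w x ∈ Subgroup.center T) (hfix : ∀ x : X, b.g • x = x) :
    psi (a * b) = psi a * psi b := by
  unfold psi
  rw [← Finset.prod_mul_distrib]
  refine Finset.prod_congr rfl (fun x _ => ?_)
  rw [mul_w, hfix, cen_mul (ha x) (hb x)]

theorem psi_one [Fintype X] : psi (1 : PWr Γ X T) = 1 := by
  unfold psi
  simp [one_w, cen_one]

theorem of_psi [Fintype X] (a : PWr Γ X T) (ha : ∀ x, a.w x ∈ Subgroup.center T) :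
    Abelianization.of ((psi a : Subgroup.center T) : T) = theta a := by
  have h := map_prod ((Abelianization.of : T →* Abelianization T).comp
    (Subgroup.center T).subtype) (fun x => cen (a.w x)) Finset.univ
  show Abelianization.of ((∏ x, cen (a.w x) : Subgroup.center T) : T)
    = ∏ x, Abelianization.of (a.w x)
  refine h.trans (Finset.prod_congr rfl (fun x _ => ?_))
  show Abelianization.of ((cen (a.w x) : Subgroup.center T) : T) = _
  rw [cen_coe (ha x)]

theorem map_psi_eq_pow [Fintype X] {H : Type*} [Group H] (φ : T →* H) (a : PWr Γ X T)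
    (ha : ∀ x, a.w x ∈ Subgroup.center T) (z : H) (hz : ∀ x, φ (a.w x) = z) :
    φ ((psi a : Subgroup.center T) : T) = z ^ Fintype.card X := by
  classical
  have key : ∀ s : Finset X,
      φ ((∏ x ∈ s, cen (a.w x) : Subgroup.center T) : T) = z ^ s.card := by
    intro s
    induction s using Finset.induction_on with
    | empty => simp
    | insert x s hx ih =>
      rw [Finset.prod_insert hx, Subgroup.coe_mul, map_mul, ih, cen_coe (ha x), hz,
        Finset.card_insert_of_notMem hx, pow_succ']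
  rw [← Finset.card_univ]
  exact key Finset.univ

end PWr

open PWr

set_option maxHeartbeats 1600000 in
/-- Corestriction: for a Schur cover `σ : Γ → G` and `q : T → Γ` with `ker σ ≤ q T` and
`q ⁻¹ (ker σ)` central in `T`, there is a homomorphism `F : ker σ → [T, T]` with
`q (F z) = z ^ |Γ : q T|`. -/
theorem exists_cor_hom {G : Type u} [Group G] {A : Type v} [CommGroup A]
    (hA : Cfsg.HasSchurMultiplier G A) {Γ : Type u} [Group Γ] [Finite Γ] (σ : Γ →* G)
    (hσ : Cfsg.IsStemExtension σ) (hk : Nat.card A ≤ Nat.card σ.ker)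
    {T : Type w} [Group T] [Finite T] (q : T →* Γ) (hZ : σ.ker ≤ q.range)
    (hcen : ∀ u : T, σ (q u) = 1 → u ∈ Subgroup.center T) :
    ∃ F : σ.ker →* T, (∀ z, F z ∈ commutator T) ∧
      ∀ z : σ.ker, q (F z) = (z : Γ) ^ q.range.index := by
  classical
  haveI : Fintype (Γ ⧸ q.range) := Fintype.ofFinite _
  let t : Γ ⧸ q.range → Γ := Quotient.out
  have ht : ∀ x : Γ ⧸ q.range, (QuotientGroup.mk (t x) : Γ ⧸ q.range) = x :=
    fun x => QuotientGroup.out_eq' x
  have hfix : ∀ z : Γ, σ z = 1 → ∀ x : Γ ⧸ q.range, z • x = x := by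
    intro z hz x
    have hzc : z ∈ Subgroup.center Γ := hσ.2.1 (MonoidHom.mem_ker.2 hz)
    have hzV : z ∈ q.range := hZ (MonoidHom.mem_ker.2 hz)
    induction x using QuotientGroup.induction_on with
    | H γ =>
      rw [MulAction.Quotient.smul_mk, smul_eq_mul, ← Subgroup.mem_center_iff.1 hzc γ]
      exact QuotientGroup.mk_mul_of_mem γ hzV
  have hmemV : ∀ (γ : Γ) (x : Γ ⧸ q.range), (t (γ • x))⁻¹ * γ * t x ∈ q.range := by
    intro γ x
    rw [mul_assoc]
    apply QuotientGroup.eq.1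
    rw [ht, ← smul_eq_mul, ← MulAction.Quotient.smul_mk, ht]
  let S : Subgroup (PWr Γ (Γ ⧸ q.range) T) :=
    { carrier := {a | ∀ x, q (a.w x) = (t (a.g • x))⁻¹ * a.g * t x}
      mul_mem' := by
        intro a b ha hb x
        have ha' : ∀ x, q (a.w x) = (t (a.g • x))⁻¹ * a.g * t x := ha
        have hb' : ∀ x, q (b.w x) = (t (b.g • x))⁻¹ * b.g * t x := hb
        rw [mul_w, map_mul, ha', hb', mul_g, mul_smul]
        group
      one_mem' := by
        intro x
        rw [one_w, map_one, one_g, one_smul]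
        group
      inv_mem' := by
        intro a ha x
        have ha' : ∀ x, q (a.w x) = (t (a.g • x))⁻¹ * a.g * t x := ha
        rw [inv_w, map_inv, ha', inv_g, smul_inv_smul]
        group }
  have hSmem : ∀ a : PWr Γ (Γ ⧸ q.range) T, a ∈ S →
      ∀ x, q (a.w x) = (t (a.g • x))⁻¹ * a.g * t x := fun a ha => ha
  haveI : Finite (PWr Γ (Γ ⧸ q.range) T) := PWr.finite_pwr
  let p : S →* Γ := (PWr.fstHom).comp S.subtype
  have hp : Function.Surjective p := by
    intro γ
    choose w hw using fun x => MonoidHom.mem_range.1 (hmemV γ x)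
    exact ⟨⟨⟨γ, w⟩, fun x => hw x⟩, rfl⟩
  have hScen : ∀ a : PWr Γ (Γ ⧸ q.range) T, a ∈ S → σ a.g = 1 →
      ∀ x, a.w x ∈ Subgroup.center T := by
    intro a ha hz x
    apply hcen
    rw [hSmem a ha x, hfix a.g hz x, map_mul, map_mul, map_inv, hz, mul_one, inv_mul_cancel]
  let N₀ : Subgroup S :=
    { carrier := {s | (s : PWr Γ (Γ ⧸ q.range) T).g = 1 ∧
        psi (s : PWr Γ (Γ ⧸ q.range) T) = 1}
      mul_mem' := by
        rintro a b ⟨ha1, ha2⟩ ⟨hb1, hb2⟩
        refine ⟨by rw [Subgroup.coe_mul, mul_g, ha1, hb1, mul_one], ?_⟩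
        rw [Subgroup.coe_mul, psi_mul _ _ (hScen _ a.2 (by rw [ha1, map_one]))
          (hScen _ b.2 (by rw [hb1, map_one])) (fun x => by rw [hb1, one_smul]), ha2, hb2,
          mul_one]
      one_mem' := ⟨rfl, psi_one⟩
      inv_mem' := by
        rintro a ⟨ha1, ha2⟩
        have h1 : ((a⁻¹ : S) : PWr Γ (Γ ⧸ q.range) T).g = 1 := by
          rw [Subgroup.coe_inv, inv_g, ha1, inv_one]
        refine ⟨h1, ?_⟩
        have h2 := psi_mul (a : PWr Γ (Γ ⧸ q.range) T) ((a⁻¹ : S) : PWr Γ (Γ ⧸ q.range) T)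
          (hScen _ a.2 (by rw [ha1, map_one])) (hScen _ (a⁻¹).2 (by rw [h1, map_one]))
          (fun x => by rw [h1, one_smul])
        rw [← Subgroup.coe_mul, mul_inv_cancel, Subgroup.coe_one, psi_one, ha2, one_mul] at h2
        exact h2.symm }
  have hN₀mem : ∀ s : S, s ∈ N₀ ↔ (s : PWr Γ (Γ ⧸ q.range) T).g = 1 ∧
      psi (s : PWr Γ (Γ ⧸ q.range) T) = 1 := fun s => Iff.rfl
  have hN₀ : N₀.Normal := by
    constructor
    intro n hn g
    obtain ⟨hn1, hn2⟩ := (hN₀mem n).1 hn
    have hnc := hScen _ n.2 (by rw [hn1, map_one])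
    have hw : ∀ x, ((g * n * g⁻¹ : S) : PWr Γ (Γ ⧸ q.range) T).w x
        = (n : PWr Γ (Γ ⧸ q.range) T).w ((g : PWr Γ (Γ ⧸ q.range) T).g⁻¹ • x) := by
      intro x
      rw [Subgroup.coe_mul, mul_w, Subgroup.coe_mul, mul_w, Subgroup.coe_inv, inv_w, inv_g,
        hn1, one_smul, Subgroup.mem_center_iff.1 (hnc _), mul_inv_cancel_right]
    refine (hN₀mem _).2 ⟨?_, ?_⟩
    · rw [Subgroup.coe_mul, mul_g, Subgroup.coe_mul, mul_g, Subgroup.coe_inv, inv_g, hn1,
        mul_one, mul_inv_cancel]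
    · rw [← hn2]
      unfold psi
      simp only [hw]
      exact Fintype.prod_equiv (MulAction.toPerm (g : PWr Γ (Γ ⧸ q.range) T).g⁻¹) _ _
        (fun x => rfl)
  let p₁ : S ⧸ N₀ →* Γ := QuotientGroup.lift N₀ p (fun n hn => MonoidHom.mem_ker.2 hn.1)
  have hp₁ : Function.Surjective p₁ := by
    intro γ
    obtain ⟨s, hs⟩ := hp γ
    exact ⟨QuotientGroup.mk s, hs⟩
  have hc₁ : (σ.comp p₁).ker ≤ Subgroup.center (S ⧸ N₀) := by
    intro y' hy'
    induction y' using QuotientGroup.induction_on with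
    | H y =>
      have hz : σ (y : PWr Γ (Γ ⧸ q.range) T).g = 1 := MonoidHom.mem_ker.1 hy'
      have hzc : (y : PWr Γ (Γ ⧸ q.range) T).g ∈ Subgroup.center Γ :=
        hσ.2.1 (MonoidHom.mem_ker.2 hz)
      have hyc := hScen _ y.2 hz
      rw [Subgroup.mem_center_iff]
      intro g'
      induction g' using QuotientGroup.induction_on with
      | H g =>
        rw [← QuotientGroup.mk_mul, ← QuotientGroup.mk_mul]
        apply QuotientGroup.eq.2
        have hgeq : ((g * y : S) : PWr Γ (Γ ⧸ q.range) T).g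
            = ((y * g : S) : PWr Γ (Γ ⧸ q.range) T).g := by
          rw [Subgroup.coe_mul, Subgroup.coe_mul, mul_g, mul_g]
          exact Subgroup.mem_center_iff.1 hzc _
        have hw : ∀ x, (((g * y)⁻¹ * (y * g) : S) : PWr Γ (Γ ⧸ q.range) T).w x
            = ((y : PWr Γ (Γ ⧸ q.range) T).w x)⁻¹
              * (y : PWr Γ (Γ ⧸ q.range) T).w ((g : PWr Γ (Γ ⧸ q.range) T).g • x) := by
          intro x
          rw [Subgroup.coe_mul, mul_w, Subgroup.coe_inv, inv_w, ← hgeq, inv_smul_smul]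
          rw [Subgroup.coe_mul, Subgroup.coe_mul, mul_w, mul_w, hfix _ hz x, mul_inv_rev]
          rw [← Subgroup.mem_center_iff.1 (hyc ((g : PWr Γ (Γ ⧸ q.range) T).g • x))
            ((g : PWr Γ (Γ ⧸ q.range) T).w x)]
          group
        refine (hN₀mem _).2 ⟨?_, ?_⟩
        · rw [Subgroup.coe_mul, mul_g, Subgroup.coe_inv, inv_g, hgeq, inv_mul_cancel]
        · unfold psi
          simp only [hw]
          have h1 : ∀ x, cen (((y : PWr Γ (Γ ⧸ q.range) T).w x)⁻¹
                * (y : PWr Γ (Γ ⧸ q.range) T).w ((g : PWr Γ (Γ ⧸ q.range) T).g • x))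
              = (cen ((y : PWr Γ (Γ ⧸ q.range) T).w x))⁻¹
                * cen ((y : PWr Γ (Γ ⧸ q.range) T).w ((g : PWr Γ (Γ ⧸ q.range) T).g • x)) := by
            intro x
            rw [cen_mul (inv_mem (hyc x)) (hyc _), cen_inv (hyc x)]
          simp only [h1]
          rw [Finset.prod_mul_distrib, Finset.prod_inv_distrib, inv_mul_eq_one]
          exact (Fintype.prod_equiv (MulAction.toPerm (g : PWr Γ (Γ ⧸ q.range) T).g) _ _
            (fun x => rfl)).symm
  have hL := Cfsg.Agent.Helper21.ker_inf_commutator_eq_bot hA σ hσ hk p₁ hp₁ hc₁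
  have hstar : ∀ y : S, y ∈ commutator S → (y : PWr Γ (Γ ⧸ q.range) T).g = 1 → y ∈ N₀ := by
    intro y hy hy1
    have h1 : (QuotientGroup.mk y : S ⧸ N₀) ∈ p₁.ker ⊓ commutator (S ⧸ N₀) :=
      Subgroup.mem_inf.2 ⟨MonoidHom.mem_ker.2 hy1,
        Cfsg.Agent.Helper21.map_mem_commutator (QuotientGroup.mk' N₀) hy⟩
    rw [hL, Subgroup.mem_bot] at h1
    exact (QuotientGroup.eq_one_iff y).1 h1
  choose y hy1 hy2 using fun z : σ.ker =>
    Cfsg.Agent.Helper21.exists_mem_commutator_of_surjective p hp (hσ.2.2 z.2)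
  have hyg : ∀ z : σ.ker, ((y z : S) : PWr Γ (Γ ⧸ q.range) T).g = (z : Γ) := hy2
  have hyσ : ∀ z : σ.ker, σ ((y z : S) : PWr Γ (Γ ⧸ q.range) T).g = 1 := fun z => by
    rw [hyg]; exact MonoidHom.mem_ker.1 z.2
  have hyc : ∀ (z : σ.ker) x, ((y z : S) : PWr Γ (Γ ⧸ q.range) T).w x ∈ Subgroup.center T :=
    fun z => hScen _ (y z).2 (hyσ z)
  have hpsi_eq : ∀ a b : S, a ∈ commutator S → b ∈ commutator S →
      σ (a : PWr Γ (Γ ⧸ q.range) T).g = 1 →
      (a : PWr Γ (Γ ⧸ q.range) T).g = (b : PWr Γ (Γ ⧸ q.range) T).g →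
      psi (a : PWr Γ (Γ ⧸ q.range) T) = psi (b : PWr Γ (Γ ⧸ q.range) T) := by
    intro a b ha hb haz hab
    have hn : a⁻¹ * b ∈ N₀ := hstar _ (mul_mem (inv_mem ha) hb) (by
      rw [Subgroup.coe_mul, mul_g, Subgroup.coe_inv, inv_g, hab, inv_mul_cancel])
    obtain ⟨hn1, hn2⟩ := (hN₀mem _).1 hn
    have h2 := psi_mul (a : PWr Γ (Γ ⧸ q.range) T) ((a⁻¹ * b : S) : PWr Γ (Γ ⧸ q.range) T)
      (hScen _ a.2 haz) (hScen _ (a⁻¹ * b).2 (by rw [hn1, map_one]))
      (fun x => by rw [hn1, one_smul])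
    rw [← Subgroup.coe_mul, mul_inv_cancel_left, hn2, mul_one] at h2
    exact h2.symm
  have hFmul : ∀ z z' : σ.ker, psi ((y (z * z') : S) : PWr Γ (Γ ⧸ q.range) T)
      = psi ((y z : S) : PWr Γ (Γ ⧸ q.range) T) * psi ((y z' : S) : PWr Γ (Γ ⧸ q.range) T) := by
    intro z z'
    rw [← psi_mul _ _ (hyc z) (hyc z') (fun x => hfix _ (hyσ z') x), ← Subgroup.coe_mul]
    apply hpsi_eq _ _ (hy1 _) (mul_mem (hy1 z) (hy1 z')) (hyσ _)
    rw [Subgroup.coe_mul, mul_g, hyg, hyg, hyg]
    rfl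
  let F : σ.ker →* T := MonoidHom.mk'
    (fun z => ((psi ((y z : S) : PWr Γ (Γ ⧸ q.range) T) : Subgroup.center T) : T))
    (fun z z' => by
      show ((psi ((y (z * z') : S) : PWr Γ (Γ ⧸ q.range) T) : Subgroup.center T) : T) = _
      rw [hFmul]; rfl)
  refine ⟨F, ?_, ?_⟩
  · intro z
    rw [← Abelianization.ker_of T, MonoidHom.mem_ker]
    show Abelianization.of
      ((psi ((y z : S) : PWr Γ (Γ ⧸ q.range) T) : Subgroup.center T) : T) = 1
    rw [of_psi _ (hyc z)]
    have h1 := Abelianization.commutator_subset_ker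
      ((PWr.theta : PWr Γ (Γ ⧸ q.range) T →* Abelianization T).comp S.subtype) (hy1 z)
    exact MonoidHom.mem_ker.1 h1
  · intro z
    show q ((psi ((y z : S) : PWr Γ (Γ ⧸ q.range) T) : Subgroup.center T) : T) = _
    have hzc : (z : Γ) ∈ Subgroup.center Γ := hσ.2.1 z.2
    rw [map_psi_eq_pow q _ (hyc z) (z : Γ) (fun x => by
      rw [hSmem _ (y z).2 x, hyg, hfix _ (MonoidHom.mem_ker.1 z.2) x, mul_assoc,
        ← Subgroup.mem_center_iff.1 hzc (t x), inv_mul_cancel_left])]
    congr 1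
    rw [Subgroup.index_eq_card, Nat.card_eq_fintype_card]

end Cfsg.Agent.Helper27
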