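import Mathlib

set_option autoImplicit false

namespace Cfsg.Agent.Helper27

section
variable {G : Type*} [Group G]

theorem dih_conj_left {a b : G} (ha : a * a = 1) (hb : b * b = 1) (n : ℕ) :
    a * (a * b) ^ n * a⁻¹ = ((a * b) ^ n)⁻¹ := by
  have hainv : a⁻¹ = a := inv_eq_of_mul_eq_one_left ha
  have hbinv : b⁻¹ = b := inv_eq_of_mul_eq_one_left hb
  have h1 : a * (a * b) * a⁻¹ = (a * b)⁻¹ := by
    rw [mul_inv_rev, hainv, hbinv, ← mul_assoc, ha, one_mul]
  rw [← conj_pow, h1, inv_pow]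

theorem dih_conj_right {a b : G} (ha : a * a = 1) (hb : b * b = 1) (n : ℕ) :
    b * (a * b) ^ n * b⁻¹ = ((a * b) ^ n)⁻¹ := by
  have hainv : a⁻¹ = a := inv_eq_of_mul_eq_one_left ha
  have hbinv : b⁻¹ = b := inv_eq_of_mul_eq_one_left hb
  have h1 : b * (a * b) * b⁻¹ = (a * b)⁻¹ := by
    rw [mul_inv_rev, hainv, hbinv]
    calc b * (a * b) * b = b * a * (b * b) := by group
      _ = b * a := by rw [hb, mul_one]
  rw [← conj_pow, h1, inv_pow]

/-- conjugating `b` by `(ab)^(k+1)` gives `(ab)^(2k+1) * a`. -/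
theorem dih_conj_b {a b : G} (ha : a * a = 1) (hb : b * b = 1) (k : ℕ) :
    (a * b) ^ (k + 1) * b * ((a * b) ^ (k + 1))⁻¹ = (a * b) ^ (2 * k + 1) * a := by
  have hbinv : b⁻¹ = b := inv_eq_of_mul_eq_one_left hb
  have h := dih_conj_right ha hb (k + 1)
  have h2 : b * ((a * b) ^ (k + 1))⁻¹ = (a * b) ^ (k + 1) * b := by
    have : ((a * b) ^ (k + 1))⁻¹ = b * (a * b) ^ (k + 1) * b⁻¹ := h.symm
    rw [this, hbinv]
    calc b * (b * (a * b) ^ (k + 1) * b) = (b * b) * (a * b) ^ (k + 1) * b := by group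
      _ = (a * b) ^ (k + 1) * b := by rw [hb, one_mul]
  calc (a * b) ^ (k + 1) * b * ((a * b) ^ (k + 1))⁻¹
      = (a * b) ^ (k + 1) * (b * ((a * b) ^ (k + 1))⁻¹) := by group
    _ = (a * b) ^ (k + 1) * ((a * b) ^ (k + 1) * b) := by rw [h2]
    _ = (a * b) ^ (2 * k + 1) * ((a * b) * b) := by
        rw [← mul_assoc, ← pow_add, ← mul_assoc, ← pow_succ]
        congr 2
        omega
    _ = (a * b) ^ (2 * k + 1) * a := by rw [mul_assoc a b b, hb, mul_one]

/-- conjugating `a` by `(ab)^k` gives `(ab)^(2k) * a`. -/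
theorem dih_conj_a {a b : G} (ha : a * a = 1) (hb : b * b = 1) (k : ℕ) :
    (a * b) ^ k * a * ((a * b) ^ k)⁻¹ = (a * b) ^ (2 * k) * a := by
  have hainv : a⁻¹ = a := inv_eq_of_mul_eq_one_left ha
  have h := dih_conj_left ha hb k
  have h2 : a * ((a * b) ^ k)⁻¹ = (a * b) ^ k * a := by
    have : ((a * b) ^ k)⁻¹ = a * (a * b) ^ k * a⁻¹ := h.symm
    rw [this, hainv]
    calc a * (a * (a * b) ^ k * a) = (a * a) * (a * b) ^ k * a := by group
      _ = (a * b) ^ k * a := by rw [ha, one_mul]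
  calc (a * b) ^ k * a * ((a * b) ^ k)⁻¹
      = (a * b) ^ k * (a * ((a * b) ^ k)⁻¹) := by group
    _ = (a * b) ^ k * ((a * b) ^ k * a) := by rw [h2]
    _ = (a * b) ^ (2 * k) * a := by
        rw [← mul_assoc, ← pow_add]
        congr 2
        omega

/-- involutions whose product has odd order are conjugate. -/
theorem dih_conj_of_odd {a b : G} (ha : a * a = 1) (hb : b * b = 1) (k : ℕ)
    (hk : (a * b) ^ (2 * k + 1) = 1) : ∃ g : G, g * b * g⁻¹ = a :=
  ⟨(a * b) ^ (k + 1), by rw [dih_conj_b ha hb, hk, one_mul]⟩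

/-- the central involution `u = (ab)^m` of a dihedral group of order `4m`. -/
theorem dih_central {a b : G} (ha : a * a = 1) (hb : b * b = 1) (m : ℕ)
    (hm : (a * b) ^ (2 * m) = 1) :
    (a * b) ^ m * (a * b) ^ m = 1 ∧ a * (a * b) ^ m = (a * b) ^ m * a ∧
      b * (a * b) ^ m = (a * b) ^ m * b ∧
      ∃ g : G, g * a * g⁻¹ = a * (a * b) ^ m ∨ g * b * g⁻¹ = a * (a * b) ^ m := by
  have huu : (a * b) ^ m * (a * b) ^ m = 1 := by
    rw [← pow_add, ← two_mul]; exact hm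
  have huinv : ((a * b) ^ m)⁻¹ = (a * b) ^ m := inv_eq_of_mul_eq_one_left huu
  have hau : a * (a * b) ^ m = (a * b) ^ m * a := by
    have h := dih_conj_left ha hb m
    rw [huinv] at h
    calc a * (a * b) ^ m = (a * (a * b) ^ m * a⁻¹) * a := by group
      _ = (a * b) ^ m * a := by rw [h]
  have hbu : b * (a * b) ^ m = (a * b) ^ m * b := by
    have h := dih_conj_right ha hb m
    rw [huinv] at h
    calc b * (a * b) ^ m = (b * (a * b) ^ m * b⁻¹) * b := by group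
      _ = (a * b) ^ m * b := by rw [h]
  refine ⟨huu, hau, hbu, ?_⟩
  rcases Nat.even_or_odd' m with ⟨k, hk | hk⟩
  · refine ⟨(a * b) ^ k, Or.inl ?_⟩
    rw [dih_conj_a ha hb, ← hk, hau]
  · refine ⟨(a * b) ^ (k + 1), Or.inr ?_⟩
    rw [dih_conj_b ha hb, ← hk, hau]

end

theorem smul_mk_eq_iff {G : Type*} [Group G] (H : Subgroup G) (g x : G) :
    x • (QuotientGroup.mk g : G ⧸ H) = QuotientGroup.mk g ↔ g⁻¹ * x * g ∈ H := by
  rw [MulAction.Quotient.smul_mk, smul_eq_mul, QuotientGroup.eq]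
  constructor
  · intro h
    have h2 := H.inv_mem h
    have e : ((x * g)⁻¹ * g)⁻¹ = g⁻¹ * x * g := by group
    rw [e] at h2; exact h2
  · intro h
    have h2 := H.inv_mem h
    have e : (g⁻¹ * x * g)⁻¹ = (x * g)⁻¹ * g := by group
    rw [e] at h2; exact h2

end Cfsg.Agent.Helper27
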