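import Cfsg.Agent.Helper27.FZa

set_option autoImplicit false

namespace Cfsg.Agent.Helper27.FZ

variable {L : Type*} [Group L]

/-- The configuration: `z` an involution whose centralizer is the Sylow `2`-subgroup `R`,
with squares and commutators of `R` in `{1, z}`. -/
structure Cfg (z : L) (R : Sylow 2 L) : Prop where
  ne : z ≠ 1
  sq : z * z = 1
  cent : ∀ x, x ∈ R ↔ Commute x z
  sqr : ∀ x ∈ R, x * x = 1 ∨ x * x = z
  com : ∀ x ∈ R, ∀ y ∈ R, Commute x y ∨ x * y = z * (y * x)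
  nrm : ∀ n : L, (∀ x ∈ R, n * x * n⁻¹ ∈ R) → n * z * n⁻¹ = z

/-- The conjugates of `z` in `R` other than `z`. -/
def O (z : L) (R : Sylow 2 L) : Set L := {a | a ∈ R ∧ a ≠ z ∧ ∃ h : L, a = h * z * h⁻¹}

theorem commute_conj_iff (h x y : L) :
    Commute (h⁻¹ * x * h) y ↔ Commute x (h * y * h⁻¹) := by
  constructor
  · intro hc
    have h1 : h⁻¹ * x * h * y = y * (h⁻¹ * x * h) := hc
    show x * (h * y * h⁻¹) = h * y * h⁻¹ * x
    have h2 : x * (h * y * h⁻¹) = h * (h⁻¹ * x * h * y) * h⁻¹ := by group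
    rw [h2, h1]; group
  · intro hc
    have h1 : x * (h * y * h⁻¹) = h * y * h⁻¹ * x := hc
    show h⁻¹ * x * h * y = y * (h⁻¹ * x * h)
    have h2 : h⁻¹ * x * h * y = h⁻¹ * (x * (h * y * h⁻¹)) * h := by group
    rw [h2, h1]; group

theorem Cfg.conj {z : L} {R : Sylow 2 L} (hc : Cfg z R) (h : L) :
    Cfg (h * z * h⁻¹) (h • R) where
  ne := by
    intro h1
    apply hc.ne
    have : z = h⁻¹ * (h * z * h⁻¹) * h := by group
    rw [this, h1]; group
  sq := by
    have : h * z * h⁻¹ * (h * z * h⁻¹) = h * (z * z) * h⁻¹ := by group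
    rw [this, hc.sq]; group
  cent := by
    intro x
    rw [mem_smul_sylow, hc.cent, commute_conj_iff]
  sqr := by
    intro x hx
    rw [mem_smul_sylow] at hx
    have e : x * x = h * (h⁻¹ * x * h * (h⁻¹ * x * h)) * h⁻¹ := by group
    rcases hc.sqr _ hx with h1 | h1
    · left; rw [e, h1]; group
    · right; rw [e, h1]
  com := by
    intro x hx y hy
    rw [mem_smul_sylow] at hx hy
    rcases hc.com _ hx _ hy with h1 | h1
    · left
      have h2 : h⁻¹ * x * h * (h⁻¹ * y * h) = h⁻¹ * y * h * (h⁻¹ * x * h) := h1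
      show x * y = y * x
      have e : x * y = h * (h⁻¹ * x * h * (h⁻¹ * y * h)) * h⁻¹ := by group
      rw [e, h2]; group
    · right
      have e : x * y = h * (h⁻¹ * x * h * (h⁻¹ * y * h)) * h⁻¹ := by group
      rw [e, h1]; group
  nrm := by
    intro n hn
    have h1 : ∀ y ∈ R, (h⁻¹ * n * h) * y * (h⁻¹ * n * h)⁻¹ ∈ R := by
      intro y hy
      have h2 : h * y * h⁻¹ ∈ h • R := by
        rw [mem_smul_sylow]
        have : h⁻¹ * (h * y * h⁻¹) * h = y := by group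
        rw [this]; exact hy
      have h3 := hn _ h2
      rw [mem_smul_sylow] at h3
      have : (h⁻¹ * n * h) * y * (h⁻¹ * n * h)⁻¹ = h⁻¹ * (n * (h * y * h⁻¹) * n⁻¹) * h := by
        group
      rw [this]; exact h3
    have h4 := hc.nrm _ h1
    have : n * (h * z * h⁻¹) * n⁻¹ = h * ((h⁻¹ * n * h) * z * (h⁻¹ * n * h)⁻¹) * h⁻¹ := by group
    rw [this, h4]

section basic

variable {z : L} {R : Sylow 2 L}

theorem Cfg.zmem (hc : Cfg z R) : z ∈ R := (hc.cent z).2 (Commute.refl z)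

theorem Cfg.zcomm (hc : Cfg z R) {x : L} (hx : x ∈ R) : Commute x z := (hc.cent x).1 hx

theorem Cfg.zinv (hc : Cfg z R) : z⁻¹ = z := inv_eq_of_mul_eq_one_left hc.sq

theorem Cfg.mem_of_fix (hc : Cfg z R) {n : L} (h : n * z * n⁻¹ = z) : n ∈ R := by
  rw [hc.cent]
  exact mul_inv_eq_iff_eq_mul.mp h

theorem Cfg.mul_mem (_hc : Cfg z R) {x y : L} (hx : x ∈ R) (hy : y ∈ R) : x * y ∈ R :=
  (R : Subgroup L).mul_mem hx hy

theorem Cfg.inv_mem (_hc : Cfg z R) {x : L} (hx : x ∈ R) : x⁻¹ ∈ R :=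
  (R : Subgroup L).inv_mem hx

/-- Parity: the product of two elements not commuting with `y` commutes with `y`. -/
theorem Cfg.par (hc : Cfg z R) {x x' y : L} (hx : x ∈ R) (hx' : x' ∈ R) (hy : y ∈ R)
    (h1 : ¬ Commute x y) (h2 : ¬ Commute x' y) : Commute (x * x') y := by
  have e1 : x * y = z * (y * x) := (hc.com x hx y hy).resolve_left h1
  have e2 : x' * y = z * (y * x') := (hc.com x' hx' y hy).resolve_left h2
  have hxz : x * z = z * x := hc.zcomm hx
  show x * x' * y = y * (x * x')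
  calc x * x' * y = x * (x' * y) := mul_assoc _ _ _
    _ = x * (z * (y * x')) := by rw [e2]
    _ = (x * z) * (y * x') := (mul_assoc _ _ _).symm
    _ = (z * x) * (y * x') := by rw [hxz]
    _ = z * ((x * y) * x') := by simp only [mul_assoc]
    _ = z * ((z * (y * x)) * x') := by rw [e1]
    _ = (z * z) * (y * (x * x')) := by simp only [mul_assoc]
    _ = y * (x * x') := by rw [hc.sq, one_mul]

theorem O_mem {a : L} (ha : a ∈ O z R) : a ∈ R := ha.1

theorem O_sq (hc : Cfg z R) {a : L} (ha : a ∈ O z R) : a * a = 1 := by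
  obtain ⟨_, _, h, rfl⟩ := ha
  exact (hc.conj h).sq

theorem O_ne_one (hc : Cfg z R) {a : L} (ha : a ∈ O z R) : a ≠ 1 := by
  obtain ⟨_, _, h, rfl⟩ := ha
  exact (hc.conj h).ne

/-- A conjugate of `z` in `R` other than `z` is not central in `R`. -/
theorem O_noncentral (hc : Cfg z R) {a : L} (ha : a ∈ O z R) : ∃ u ∈ R, ¬ Commute u a := by
  by_contra hcon
  push_neg at hcon
  obtain ⟨_, haz, h, rfl⟩ := ha
  apply haz
  have h1 : ∀ x ∈ R, h⁻¹ * x * h⁻¹⁻¹ ∈ R := by
    intro x hx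
    rw [inv_inv, hc.cent, commute_conj_iff]
    exact hcon x hx
  have h2 := hc.nrm _ h1
  rw [inv_inv] at h2
  have : h * z * h⁻¹ = h * (h⁻¹ * z * h) * h⁻¹ := by rw [h2]
  rw [this]; group

/-- The centralizer in `R` of such a conjugate has exponent two. -/
theorem O_sq_of_commute (hc : Cfg z R) {a : L} (ha : a ∈ O z R) {x : L} (hx : x ∈ R)
    (hxa : Commute x a) : x * x = 1 := by
  obtain ⟨_, haz, h, rfl⟩ := ha
  rcases hc.sqr x hx with h1 | h1
  · exact h1
  · have hx' : x ∈ h • R := ((hc.conj h).cent x).2 hxa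
    rcases (hc.conj h).sqr x hx' with h2 | h2
    · exact h2
    · exact absurd (h2.symm.trans h1) haz

theorem O_commute (hc : Cfg z R) {a : L} (ha : a ∈ O z R) {x y : L} (hx : x ∈ R) (hy : y ∈ R)
    (hxa : Commute x a) (hya : Commute y a) : Commute x y :=
  comm_of_sq (O_sq_of_commute hc ha hx hxa) (O_sq_of_commute hc ha hy hya)
    (O_sq_of_commute hc ha (hc.mul_mem hx hy) (hxa.mul_left hya))

theorem F0 (hc : Cfg z R) {b b' u : L} (hb : b ∈ O z R) (hb' : b' ∈ O z R) (hbb : Commute b b')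
    (hu : u ∈ R) (hub : ¬ Commute u b) : ¬ Commute u b' := by
  intro hub'
  obtain ⟨u', hu', hu'b'⟩ := O_noncentral hc hb'
  have h1 : ¬ Commute u' b := fun h => hu'b' (O_commute hc hb hu' hb'.1 h hbb.symm)
  have h2 : Commute (u * u') b := hc.par hu hu' hb.1 hub h1
  have h3 : Commute (u * u') b' := O_commute hc hb (hc.mul_mem hu hu') hb'.1 h2 hbb.symm
  apply hu'b'
  have h4 : Commute (u⁻¹ * (u * u')) b' := hub'.inv_left.mul_left h3
  simpa using h4

theorem F2 (hc : Cfg z R) {a₁ a₂ a₃ : L} (h1 : a₁ ∈ O z R) (h2 : a₂ ∈ R) (h3 : a₃ ∈ R)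
    (s2 : a₂ * a₂ = 1) (s3 : a₃ * a₃ = 1) (n2 : ¬ Commute a₂ a₁) (n3 : ¬ Commute a₃ a₁) :
    Commute a₂ a₃ :=
  comm_of_sq s2 s3 (O_sq_of_commute hc h1 (hc.mul_mem h2 h3) (hc.par h2 h3 h1.1 n2 n3))

end basic

end Cfsg.Agent.Helper27.FZ
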