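import Cfsg.Agent.Helper27.FZb

set_option autoImplicit false

namespace Cfsg.Agent.Helper27.FZ

variable {L : Type*} [Group L] {z : L} {R : Sylow 2 L}

theorem F1 (hc : Cfg z R) {a a' : L} (ha : a ∈ O z R) (ha' : a' ∈ O z R) (haa : Commute a a') :
    a' = a ∨ a' = a * z := by
  by_contra hcon
  push_neg at hcon
  obtain ⟨hne1, hne2⟩ := hcon
  obtain ⟨u, hu, hua⟩ := O_noncentral hc ha
  have hua' : ¬ Commute u a' := F0 hc ha ha' haa hu hua
  obtain ⟨haR, haz, h, hah⟩ := id ha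
  obtain ⟨ha'R, ha'z, h', ha'h⟩ := id ha'
  have ca : Cfg a (h • R) := by rw [hah]; exact hc.conj h
  have ca' : Cfg a' (h' • R) := by rw [ha'h]; exact hc.conj h'
  have hza : Commute z a := (hc.zcomm haR).symm
  have hza' : Commute z a' := (hc.zcomm ha'R).symm
  have hzO : z ∈ O a (h • R) :=
    ⟨(ca.cent z).2 hza, fun e => haz e.symm, h⁻¹, by rw [hah]; group⟩
  obtain ⟨ua, hua_mem, huaz⟩ := O_noncentral ca hzO
  have e1 : ua * z = a * (z * ua) := (ca.com ua hua_mem z hzO.1).resolve_left huaz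
  have hb₂R : a * z ∈ R := hc.mul_mem haR hc.zmem
  have hb₂ne : a * z ≠ z := fun e =>
    O_ne_one hc ha (mul_right_cancel (e.trans (one_mul z).symm))
  have hb₂conj : a * z = ua * z * ua⁻¹ := by rw [e1]; group
  have hzO' : z ∈ O a' (h' • R) :=
    ⟨(ca'.cent z).2 hza', fun e => ha'z e.symm, h'⁻¹, by rw [ha'h]; group⟩
  have hb₂a' : Commute (a * z) a' := haa.mul_left hza'
  have hb₂O' : a * z ∈ O a' (h' • R) :=
    ⟨(ca'.cent _).2 hb₂a', fun e => hne2 e.symm, ua * h'⁻¹, by rw [hb₂conj, ha'h]; group⟩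
  obtain ⟨u', hu'_mem, hu'z⟩ := O_noncentral ca' hzO'
  have hzb₂ : Commute z (a * z) := hza.mul_right (Commute.refl z)
  have hu'b₂ : ¬ Commute u' (a * z) := F0 ca' hzO' hb₂O' hzb₂ hu'_mem hu'z
  have e2 : u' * (a * z) = a' * (a * z * u') :=
    (ca'.com u' hu'_mem _ hb₂O'.1).resolve_left hu'b₂
  have heR : a' * (a * z) ∈ R := hc.mul_mem ha'R hb₂R
  have hene : a' * (a * z) ≠ z := by
    intro e
    apply hne1
    have h1 : a' * a = 1 := by
      have h2 : a' * a * z = z := by rw [mul_assoc]; exact e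
      exact mul_right_cancel (h2.trans (one_mul z).symm)
    have h2 : a' = a⁻¹ := eq_inv_of_mul_eq_one_left h1
    rw [h2, inv_eq_of_mul_eq_one_left (O_sq hc ha)]
  have heconj : a' * (a * z) = (u' * ua) * z * (u' * ua)⁻¹ := by
    have h1 : a' * (a * z) = u' * (a * z) * u'⁻¹ := by rw [e2]; group
    rw [h1, hb₂conj]; group
  have heO : a' * (a * z) ∈ O z R := ⟨heR, hene, _, heconj⟩
  have hae : Commute a (a' * (a * z)) := haa.mul_right ((Commute.refl a).mul_right hza.symm)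
  have hue : ¬ Commute u (a' * (a * z)) := F0 hc ha heO hae hu hua
  apply hue
  have h5 : Commute (a' * a) u :=
    hc.par ha'R haR hu (fun hh => hua' hh.symm) (fun hh => hua hh.symm)
  have h6 : Commute (a' * a * z) u := h5.mul_left (hc.zcomm hu).symm
  rw [mul_assoc] at h6
  exact h6.symm

/-- Fusion of central elements of `R`. -/
theorem Fus [Finite L] (hc : Cfg z R) {d : L} (hdZ : ∀ x ∈ R, Commute x d) (h : L)
    (hy : h * d * h⁻¹ ∈ R) : h * d * h⁻¹ = d ∨ ∃ a ∈ O z R, h * d * h⁻¹ = a * d := by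
  haveI : Fact (Nat.Prime 2) := ⟨Nat.prime_two⟩
  obtain ⟨y, hydef⟩ : ∃ y, y = h * d * h⁻¹ := ⟨_, rfl⟩
  rw [← hydef] at hy ⊢
  have hPK : ((h • R : Sylow 2 L) : Subgroup L) ≤ Subgroup.centralizer {y} := by
    intro x hx
    have hx' : h⁻¹ * x * h ∈ R := (mem_smul_sylow R h x).1 hx
    rw [Subgroup.mem_centralizer_singleton_iff, hydef]
    exact ((commute_conj_iff h x d).1 (hdZ _ hx')).eq
  have hQ : IsPGroup 2 ↥((R : Subgroup L) ⊓ Subgroup.centralizer {y}) :=
    R.isPGroup'.to_le inf_le_left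
  obtain ⟨c, hcK, hcQ⟩ := sylow_conj_in (h • R) _ hPK _ hQ inf_le_right
  have hcy : c * y = y * c := Subgroup.mem_centralizer_singleton_iff.mp hcK
  obtain ⟨h', hh'⟩ : ∃ h', h' = c * h := ⟨_, rfl⟩
  have hQ' : ∀ x ∈ R, Commute x y → h'⁻¹ * x * h' ∈ R := by
    intro x hx hxy
    have h1 := hcQ x ⟨hx, Subgroup.mem_centralizer_singleton_iff.mpr hxy.eq⟩
    rw [mem_smul_sylow] at h1
    have : h'⁻¹ * x * h' = h⁻¹ * (c⁻¹ * x * c) * h := by rw [hh']; group
    rw [this]; exact h1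
  have hy' : h' * d * h'⁻¹ = y := by
    have : h' * d * h'⁻¹ = c * y * c⁻¹ := by rw [hh', hydef]; group
    rw [this, hcy]; group
  have hb_mem : h'⁻¹ * z * h' ∈ R := hQ' z hc.zmem (hc.zcomm hy).symm
  by_cases hb : h'⁻¹ * z * h' = z
  · left
    have hh'R : h' ∈ R := by
      rw [hc.cent]
      show h' * z = z * h'
      have : h' * z = h' * (h'⁻¹ * z * h') := by rw [hb]
      rw [this]; group
    rw [← hy']
    have h2 : h' * d = d * h' := hdZ _ hh'R
    rw [h2]; group
  · obtain ⟨b, hbdef⟩ : ∃ b, b = h'⁻¹ * z * h' := ⟨_, rfl⟩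
    rw [← hbdef] at hb hb_mem
    have hbO : b ∈ O z R := ⟨hb_mem, hb, h'⁻¹, by rw [hbdef, inv_inv]⟩
    have cb : Cfg b (h'⁻¹ • R) := by
      have := hc.conj h'⁻¹
      rw [inv_inv, ← hbdef] at this
      exact this
    have hu₀ : ∃ u₀ ∈ R, h'⁻¹ * u₀ * h' ∉ R := by
      by_contra hcon
      push_neg at hcon
      apply hb
      have := hc.nrm h'⁻¹ (by intro x hx; rw [inv_inv]; exact hcon x hx)
      rw [inv_inv] at this
      rw [hbdef]; exact this
    obtain ⟨u₀, hu₀R, hu₀n⟩ := hu₀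
    have hu₀y : ¬ Commute u₀ y := fun hh => hu₀n (hQ' u₀ hu₀R hh)
    let Db : Subgroup L := (R : Subgroup L) ⊓ Subgroup.centralizer {b}
    have hDb : ∀ x, x ∈ Db ↔ x ∈ R ∧ Commute x b := by
      intro x
      show x ∈ (R : Subgroup L) ∧ x ∈ Subgroup.centralizer {b} ↔ _
      rw [Subgroup.mem_centralizer_singleton_iff]
      exact Iff.rfl
    have hzDb : z ∈ Db := (hDb z).2 ⟨hc.zmem, (hc.zcomm hb_mem).symm⟩
    have hbDb : b ∈ Db := (hDb b).2 ⟨hb_mem, Commute.refl b⟩
    have hRN : (R : Subgroup L) ≤ Subgroup.normalizer (Db : Set L) := by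
      apply le_normalizer_of_conj
      intro u hu x hx
      rcases hc.com u hu x ((hDb x).1 hx).1 with h1 | h1
      · have : u * x * u⁻¹ = x := by rw [h1.eq]; group
        rw [this]; exact hx
      · have : u * x * u⁻¹ = z * x := by rw [h1]; group
        rw [this]; exact Db.mul_mem hzDb hx
    have hR'N : ((h'⁻¹ • R : Sylow 2 L) : Subgroup L) ≤ Subgroup.normalizer (Db : Set L) := by
      apply le_normalizer_of_conj
      intro u hu x hx
      have hx' : x ∈ h'⁻¹ • R := (cb.cent x).2 ((hDb x).1 hx).2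
      rcases cb.com u hu x hx' with h1 | h1
      · have : u * x * u⁻¹ = x := by rw [h1.eq]; group
        rw [this]; exact hx
      · have : u * x * u⁻¹ = b * x := by rw [h1]; group
        rw [this]; exact Db.mul_mem hbDb hx
    obtain ⟨n, hnN, hnQ⟩ := sylow_conj_in R _ hRN _ (h'⁻¹ • R).isPGroup' hR'N
    have hm : n⁻¹ * h'⁻¹ ∈ R := by
      apply hc.mem_of_fix
      apply hc.nrm
      intro x hx
      have h1 : h'⁻¹ * x * h' ∈ h'⁻¹ • R := by
        rw [mem_smul_sylow, inv_inv]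
        have : h' * (h'⁻¹ * x * h') * h'⁻¹ = x := by group
        rw [this]; exact hx
      have h2 := hnQ _ h1
      have : n⁻¹ * h'⁻¹ * x * (n⁻¹ * h'⁻¹)⁻¹ = n⁻¹ * (h'⁻¹ * x * h') * n := by group
      rw [this]; exact h2
    have hh'N : h' ∈ Subgroup.normalizer (Db : Set L) := by
      have h1 : n * (n⁻¹ * h'⁻¹) ∈ Subgroup.normalizer (Db : Set L) :=
        Subgroup.mul_mem _ hnN (hRN hm)
      have h2 : n * (n⁻¹ * h'⁻¹) = h'⁻¹ := by group
      rw [h2] at h1
      have := Subgroup.inv_mem _ h1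
      rwa [inv_inv] at this
    obtain ⟨a, hadef⟩ : ∃ a, a = h' * z * h'⁻¹ := ⟨_, rfl⟩
    have haDb : a ∈ Db := by
      rw [hadef]; exact (Subgroup.mem_normalizer_iff.mp hh'N z).1 hzDb
    have haR : a ∈ R := ((hDb a).1 haDb).1
    have hab : Commute a b := ((hDb a).1 haDb).2
    have haz : a ≠ z := by
      intro e
      apply hb
      rw [hadef] at e
      have : h'⁻¹ * z * h' = h'⁻¹ * (h' * z * h'⁻¹) * h' := by rw [e]
      rw [hbdef, this]; group
    have haO : a ∈ O z R := ⟨haR, haz, h', hadef⟩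
    have ca : Cfg a (h' • R) := by rw [hadef]; exact hc.conj h'
    obtain ⟨u, hu, hub⟩ := O_noncentral hc hbO
    have hua : ¬ Commute u a := F0 hc hbO haO hab.symm hu hub
    obtain ⟨ua, huadef⟩ : ∃ ua, ua = h' * u * h'⁻¹ := ⟨_, rfl⟩
    have hua_mem : ua ∈ h' • R := by
      rw [mem_smul_sylow]
      have : h'⁻¹ * ua * h' = u := by rw [huadef]; group
      rw [this]; exact hu
    have huaz : ¬ Commute ua z := by
      intro hcomm
      have huaR : ua ∈ R := (hc.cent ua).2 hcomm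
      have h1 : Commute ua a := (ca.cent ua).1 hua_mem
      have h2 : Commute ua b := by
        by_contra h3
        exact F0 hc hbO haO hab.symm huaR h3 h1
      have h4 : ua ∈ Db := (hDb ua).2 ⟨huaR, h2⟩
      have h5 : u ∈ Db := by
        rw [huadef] at h4
        exact (Subgroup.mem_normalizer_iff.mp hh'N u).2 h4
      exact hub ((hDb u).1 h5).2
    have hza_mem : z ∈ h' • R := (ca.cent z).2 (hc.zcomm haR).symm
    have e1 : ua * z = a * (z * ua) := (ca.com ua hua_mem z hza_mem).resolve_left huaz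
    have e2 : u * a = z * (a * u) := (hc.com u hu a haR).resolve_left hua
    have huz : u * z = z * u := hc.zcomm hu
    have haz' : a * z = z * a := hc.zcomm haR
    have hw : (u * ua) * z = a * (u * ua) := by
      calc u * ua * z = u * (ua * z) := mul_assoc _ _ _
        _ = u * (a * (z * ua)) := by rw [e1]
        _ = (u * a) * (z * ua) := (mul_assoc _ _ _).symm
        _ = (z * (a * u)) * (z * ua) := by rw [e2]
        _ = z * a * (u * z) * ua := by simp only [mul_assoc]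
        _ = z * a * (z * u) * ua := by rw [huz]
        _ = z * (a * z) * u * ua := by simp only [mul_assoc]
        _ = z * (z * a) * u * ua := by rw [haz']
        _ = (z * z) * a * u * ua := by simp only [mul_assoc]
        _ = a * (u * ua) := by rw [hc.sq, one_mul, mul_assoc]
    have hmR : (u * ua)⁻¹ * h' ∈ R := by
      apply hc.mem_of_fix
      have h1 : (u * ua)⁻¹ * h' * z * ((u * ua)⁻¹ * h')⁻¹ = (u * ua)⁻¹ * (a * (u * ua)) := by
        rw [hadef]; group
      rw [h1, ← hw]; group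
    have hmd : Commute ((u * ua)⁻¹ * h') d := hdZ _ hmR
    have hyw : y = (u * ua) * d * (u * ua)⁻¹ := by
      rw [← hy']
      have h1 : h' * d * h'⁻¹ =
          (u * ua) * (((u * ua)⁻¹ * h') * d) * ((u * ua)⁻¹ * h')⁻¹ * (u * ua)⁻¹ := by group
      rw [h1, hmd.eq]; group
    have hdmem : d ∈ h' • R := (ca.cent d).2 (hdZ a haR).symm
    have hud : u * d = d * u := hdZ u hu
    rcases ca.com ua hua_mem d hdmem with h1 | h1
    · left
      rw [hyw]
      have : u * ua * d = d * (u * ua) := by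
        rw [mul_assoc, h1.eq, ← mul_assoc, hud, mul_assoc]
      rw [this]; group
    · right
      refine ⟨z * a, ⟨hc.mul_mem hc.zmem haR, ?_, u * h', ?_⟩, ?_⟩
      · exact fun e => O_ne_one hc haO (mul_left_cancel (e.trans (mul_one z).symm))
      · have : u * h' * z * (u * h')⁻¹ = u * a * u⁻¹ := by rw [hadef]; group
        rw [this, e2]; group
      · rw [hyw]
        have : u * ua * d = z * a * d * (u * ua) := by
          calc u * ua * d = u * (ua * d) := mul_assoc _ _ _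
            _ = u * (a * (d * ua)) := by rw [h1]
            _ = (u * a) * (d * ua) := (mul_assoc _ _ _).symm
            _ = (z * (a * u)) * (d * ua) := by rw [e2]
            _ = z * a * (u * d) * ua := by simp only [mul_assoc]
            _ = z * a * (d * u) * ua := by rw [hud]
            _ = z * a * d * (u * ua) := by simp only [mul_assoc]
        rw [this]; group

theorem control [Finite L] (hc : Cfg z R) (hO : ∀ a, a ∉ O z R) {x : L} (hx : x ∈ R) (h : L)
    (hy : h * x * h⁻¹ ∈ R) : ∃ r ∈ R, h * x * h⁻¹ = r * x * r⁻¹ := by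
  haveI : Fact (Nat.Prime 2) := ⟨Nat.prime_two⟩
  have hconj : ∀ k : L, k * z * k⁻¹ ∈ R → k * z * k⁻¹ = z := by
    intro k hk
    by_contra hne
    exact hO _ ⟨hk, hne, k, rfl⟩
  obtain ⟨y, hydef⟩ : ∃ y, y = h * x * h⁻¹ := ⟨_, rfl⟩
  rw [← hydef] at hy ⊢
  have hz2 : IsPGroup 2 ↥(Subgroup.zpowers z) :=
    R.isPGroup'.to_le (Subgroup.zpowers_le.mpr hc.zmem)
  have hz2' : IsPGroup 2 ↥(Subgroup.zpowers (h * z * h⁻¹)) := by
    refine (h • R).isPGroup'.to_le (Subgroup.zpowers_le.mpr ?_)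
    show h * z * h⁻¹ ∈ h • R
    rw [mem_smul_sylow]
    have : h⁻¹ * (h * z * h⁻¹) * h = z := by group
    rw [this]; exact hc.zmem
  have le1 : Subgroup.zpowers z ≤ Subgroup.centralizer {y} := by
    rw [Subgroup.zpowers_le, Subgroup.mem_centralizer_singleton_iff]
    exact (hc.zcomm hy).symm.eq
  have le2 : Subgroup.zpowers (h * z * h⁻¹) ≤ Subgroup.centralizer {y} := by
    rw [Subgroup.zpowers_le, Subgroup.mem_centralizer_singleton_iff, hydef]
    have h1 : x * z = z * x := hc.zcomm hx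
    calc h * z * h⁻¹ * (h * x * h⁻¹) = h * (z * x) * h⁻¹ := by group
      _ = h * (x * z) * h⁻¹ := by rw [h1]
      _ = h * x * h⁻¹ * (h * z * h⁻¹) := by group
  obtain ⟨P₁, hP₁, hzP₁, c, hcK, hcP⟩ := sylow_two_sub (Subgroup.centralizer {y})
    (Subgroup.zpowers z) (Subgroup.zpowers (h * z * h⁻¹)) hz2 hz2' le1 le2
  obtain ⟨S', hS'⟩ := hP₁.exists_le_sylow
  obtain ⟨k, hk⟩ := MulAction.exists_smul_eq L R S'
  have hzk : z ∈ k • R := by rw [hk]; exact hS' (hzP₁ (Subgroup.mem_zpowers z))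
  rw [mem_smul_sylow] at hzk
  have hkz : k⁻¹ * z * k = z := by
    have := hconj k⁻¹ (by rw [inv_inv]; exact hzk)
    rwa [inv_inv] at this
  have hkR : k ∈ R := by
    have h1 : k⁻¹ ∈ R := hc.mem_of_fix (by rw [inv_inv]; exact hkz)
    have := hc.inv_mem h1
    rwa [inv_inv] at this
  have hP₁R : ∀ w ∈ P₁, w ∈ R := by
    intro w hw
    have h1 : w ∈ k • R := by rw [hk]; exact hS' hw
    rw [mem_smul_sylow] at h1
    have : w = k * (k⁻¹ * w * k) * k⁻¹ := by group
    rw [this]; exact hc.mul_mem (hc.mul_mem hkR h1) (hc.inv_mem hkR)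
  have h2 : c⁻¹ * (h * z * h⁻¹) * c ∈ R := hP₁R _ (hcP _ (Subgroup.mem_zpowers _))
  have e : (c⁻¹ * h) * z * (c⁻¹ * h)⁻¹ = c⁻¹ * (h * z * h⁻¹) * c := by group
  have h3 : (c⁻¹ * h) * z * (c⁻¹ * h)⁻¹ = z := hconj (c⁻¹ * h) (by rw [e]; exact h2)
  refine ⟨c⁻¹ * h, hc.mem_of_fix h3, ?_⟩
  have hcy : c * y = y * c := Subgroup.mem_centralizer_singleton_iff.mp hcK
  have h4 : c⁻¹ * h * x * (c⁻¹ * h)⁻¹ = c⁻¹ * (y * c) := by rw [hydef]; group
  rw [h4, ← hcy]; group

theorem exists_O [Finite L] [IsSimpleGroup L] (hL : ¬ IsMulCommutative L) (hc : Cfg z R) :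
    ∃ a, a ∈ O z R := by
  haveI : Fact (Nat.Prime 2) := ⟨Nat.prime_two⟩
  by_contra hO
  push_neg at hO
  have hodd : ¬ 2 ∣ (R : Subgroup L).index := R.not_dvd_index
  have hall : ∀ x : ↥(R : Subgroup L),
      (Abelianization.of : ↥(R : Subgroup L) →* Abelianization ↥(R : Subgroup L)) x = 1 := by
    intro x
    have key : ∀ (k : ℕ) (g₀ : L) (hk : g₀⁻¹ * (x : L) ^ k * g₀ ∈ (R : Subgroup L)),
        (Abelianization.of : ↥(R : Subgroup L) →* Abelianization ↥(R : Subgroup L))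
          ⟨g₀⁻¹ * (x : L) ^ k * g₀, hk⟩ = Abelianization.of x ^ k := by
      intro k g₀ hk
      have hxk : (x : L) ^ k ∈ R := (R : Subgroup L).pow_mem x.2 k
      obtain ⟨r, hr, her⟩ := control hc hO hxk g₀⁻¹ (by rw [inv_inv]; exact hk)
      rw [inv_inv] at her
      have e : (⟨g₀⁻¹ * (x : L) ^ k * g₀, hk⟩ : ↥(R : Subgroup L)) =
          ⟨r, hr⟩ * x ^ k * ⟨r, hr⟩⁻¹ := Subtype.ext (by simpa using her)
      rw [e, map_mul, map_mul, map_pow, map_inv, mul_comm, ← mul_assoc, inv_mul_cancel, one_mul]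
    have h1 := transfer_const (Abelianization.of : ↥(R : Subgroup L) →* _) (x : L)
      (Abelianization.of x) key
    have h2 : (Abelianization.of x : Abelianization ↥(R : Subgroup L)) ^ (R : Subgroup L).index
        = 1 := by
      rw [← h1]; exact hom_trivial_of_simple hL _ _
    obtain ⟨j, hj⟩ := R.isPGroup' x
    have h3 : (Abelianization.of x : Abelianization ↥(R : Subgroup L)) ^ (2 ^ j) = 1 := by
      rw [← map_pow, hj, map_one]
    have h4 : orderOf (Abelianization.of x : Abelianization ↥(R : Subgroup L)) ∣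
        Nat.gcd ((R : Subgroup L).index) (2 ^ j) :=
      Nat.dvd_gcd (orderOf_dvd_of_pow_eq_one h2) (orderOf_dvd_of_pow_eq_one h3)
    have h5 : Nat.gcd ((R : Subgroup L).index) (2 ^ j) = 1 :=
      Nat.Coprime.pow_right j ((Nat.Prime.coprime_iff_not_dvd Nat.prime_two).mpr hodd).symm
    rw [h5, Nat.dvd_one] at h4
    exact orderOf_eq_one_iff.mp h4
  have hker : (Abelianization.of : ↥(R : Subgroup L) →* _).ker = ⊤ := by
    rw [eq_top_iff]; intro x _; exact MonoidHom.mem_ker.mpr (hall x)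
  rw [Abelianization.ker_of] at hker
  haveI : Nontrivial ↥(R : Subgroup L) :=
    ⟨⟨⟨z, hc.zmem⟩, 1, fun e => hc.ne (congrArg Subtype.val e)⟩⟩
  haveI : Group.IsNilpotent ↥(R : Subgroup L) := R.isPGroup'.isNilpotent
  exact (IsSolvable.commutator_lt_top_of_nontrivial ↥(R : Subgroup L)).ne hker

end Cfsg.Agent.Helper27.FZ
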