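import Cfsg.Agent.Helper27.FZc
import Cfsg.Agent.S0206

set_option autoImplicit false

namespace Cfsg.Agent.Helper27.FZ

variable {L : Type*} [Group L] {z : L} {R : Sylow 2 L}

theorem main [Finite L] [IsSimpleGroup L] (hL : ¬ IsMulCommutative L) (hc : Cfg z R) :
    Nonempty (↥(R : Subgroup L) ≃* DihedralGroup 4) := by
  haveI : Fact (Nat.Prime 2) := ⟨Nat.prime_two⟩
  obtain ⟨t, ht⟩ := exists_O hL hc
  have htR : t ∈ R := ht.1
  have htsq : t * t = 1 := O_sq hc ht
  have htne : t ≠ 1 := O_ne_one hc ht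
  obtain ⟨u₀, hu₀, hu₀t⟩ := O_noncentral hc ht
  have hzt : z * t = t * z := (hc.zcomm htR).symm.eq
  have hv : ∃ v ∈ R, v * v = 1 ∧ ¬ Commute v t ∧
      ∀ a ∈ O z R, ¬ Commute a t → a = v ∨ a = v * z := by
    by_cases hex : ∃ a ∈ O z R, ¬ Commute a t
    · obtain ⟨v, hvO, hvt⟩ := hex
      refine ⟨v, hvO.1, O_sq hc hvO, hvt, fun a ha hat => ?_⟩
      have h1 : Commute a v := F2 hc ht ha.1 hvO.1 (O_sq hc ha) (O_sq hc hvO) hat hvt
      exact F1 hc hvO ha h1.symm
    · push_neg at hex
      have hex' : ∀ a ∈ O z R, ¬ Commute a t → False := fun a ha hat => hat (hex a ha)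
      rcases hc.sqr u₀ hu₀ with h1 | h1
      · exact ⟨u₀, hu₀, h1, hu₀t, fun a ha hat => (hex' a ha hat).elim⟩
      · have e : u₀ * t = z * (t * u₀) := (hc.com u₀ hu₀ t htR).resolve_left hu₀t
        refine ⟨t * u₀, hc.mul_mem htR hu₀, ?_, ?_, fun a ha hat => (hex' a ha hat).elim⟩
        · calc t * u₀ * (t * u₀) = t * (u₀ * t) * u₀ := by simp only [mul_assoc]
            _ = t * (z * (t * u₀)) * u₀ := by rw [e]
            _ = t * z * t * (u₀ * u₀) := by simp only [mul_assoc]
            _ = t * z * t * z := by rw [h1]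
            _ = t * (z * t) * z := by simp only [mul_assoc]
            _ = t * (t * z) * z := by rw [hzt]
            _ = (t * t) * (z * z) := by simp only [mul_assoc]
            _ = 1 := by rw [htsq, hc.sq, one_mul]
        · intro hcomm
          apply hu₀t
          have : Commute (t⁻¹ * (t * u₀)) t := (Commute.refl t).inv_left.mul_left hcomm
          simpa using this
  obtain ⟨v, hvR, hvsq, hvt, hvO⟩ := hv
  have e_vt : v * t = z * (t * v) := (hc.com v hvR t htR).resolve_left hvt
  let K : Subgroup L := Subgroup.closure {t, v}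
  have htK : t ∈ K := Subgroup.subset_closure (Set.mem_insert _ _)
  have hvK : v ∈ K := Subgroup.subset_closure (Set.mem_insert_of_mem _ (Set.mem_singleton _))
  have hzK : z ∈ K := by
    have : z = v * t * (t * v)⁻¹ := by rw [e_vt]; group
    rw [this]; exact K.mul_mem (K.mul_mem hvK htK) (K.inv_mem (K.mul_mem htK hvK))
  have hOK : ∀ a ∈ O z R, a ∈ K := by
    intro a ha
    by_cases hat : Commute a t
    · rcases F1 hc ht ha hat.symm with h1 | h1
      · rw [h1]; exact htK
      · rw [h1]; exact K.mul_mem htK hzK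
    · rcases hvO a ha hat with h1 | h1
      · rw [h1]; exact hvK
      · rw [h1]; exact K.mul_mem hvK hzK
  have hKR : K ≤ (R : Subgroup L) := by
    rw [Subgroup.closure_le]
    intro x hx
    rcases hx with rfl | hx
    · exact htR
    · rw [Set.mem_singleton_iff] at hx; rw [hx]; exact hvR
  haveI hKn : (K.subgroupOf (R : Subgroup L)).Normal := by
    constructor
    intro k hk r
    rw [Subgroup.mem_subgroupOf] at hk ⊢
    show (r : L) * k * (r : L)⁻¹ ∈ K
    rcases hc.com r r.2 k k.2 with h1 | h1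
    · have : (r : L) * k * (r : L)⁻¹ = k := by rw [h1.eq]; group
      rw [this]; exact hk
    · have : (r : L) * k * (r : L)⁻¹ = z * k := by rw [h1]; group
      rw [this]; exact K.mul_mem hzK hk
  have hcomm0 : commutator (↥(R : Subgroup L) ⧸ K.subgroupOf (R : Subgroup L)) = ⊥ := by
    rw [commutator_def, Subgroup.commutator_eq_bot_iff_le_centralizer]
    intro a _
    rw [Subgroup.mem_centralizer_iff]
    intro b _
    obtain ⟨a, rfl⟩ := QuotientGroup.mk_surjective a
    obtain ⟨b, rfl⟩ := QuotientGroup.mk_surjective b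
    rw [← QuotientGroup.mk_mul, ← QuotientGroup.mk_mul, QuotientGroup.eq, Subgroup.mem_subgroupOf]
    show ((b : L) * a)⁻¹ * (a * b) ∈ K
    rcases hc.com a a.2 b b.2 with h1 | h1
    · rw [h1.eq, inv_mul_cancel]; exact K.one_mem
    · have hz' : z * ((b : L) * a) = (b * a) * z := (hc.zcomm (hc.mul_mem b.2 a.2)).symm.eq
      rw [h1, hz', ← mul_assoc, inv_mul_cancel, one_mul]; exact hzK
  let lam : ↥(R : Subgroup L) →*
      Abelianization (↥(R : Subgroup L) ⧸ K.subgroupOf (R : Subgroup L)) :=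
    Abelianization.of.comp (QuotientGroup.mk' _)
  have hlam : ∀ (x : L) (hx : x ∈ (R : Subgroup L)), lam ⟨x, hx⟩ = 1 ↔ x ∈ K := by
    intro x hx
    show Abelianization.of (QuotientGroup.mk' (K.subgroupOf (R : Subgroup L))
      (⟨x, hx⟩ : ↥(R : Subgroup L))) = 1 ↔ _
    rw [← MonoidHom.mem_ker, Abelianization.ker_of, hcomm0, Subgroup.mem_bot,
      QuotientGroup.mk'_apply, QuotientGroup.eq_one_iff, Subgroup.mem_subgroupOf]
  have hodd : ¬ 2 ∣ (R : Subgroup L).index := R.not_dvd_index
  have hZK : ∀ d ∈ R, (∀ x ∈ R, Commute x d) → d ∈ K := by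
    intro d hd hdZ
    have hdsq : d * d = 1 := O_sq_of_commute hc ht hd (hdZ t htR).symm
    obtain ⟨c, hcdef⟩ : ∃ c, c = lam ⟨d, hd⟩ := ⟨_, rfl⟩
    have hc2 : c ^ 2 = 1 := by
      rw [hcdef, ← map_pow]
      have : (⟨d, hd⟩ : ↥(R : Subgroup L)) ^ 2 = 1 := Subtype.ext (by
        show d ^ 2 = 1
        rw [pow_two, hdsq])
      rw [this, map_one]
    have key : ∀ (k : ℕ) (g₀ : L) (hk : g₀⁻¹ * d ^ k * g₀ ∈ (R : Subgroup L)),
        lam ⟨g₀⁻¹ * d ^ k * g₀, hk⟩ = c ^ k := by
      intro k g₀ hk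
      rcases Nat.even_or_odd' k with ⟨j, rfl | rfl⟩
      · have e1 : d ^ (2 * j) = 1 := by rw [pow_mul, pow_two, hdsq, one_pow]
        have e2 : (⟨g₀⁻¹ * d ^ (2 * j) * g₀, hk⟩ : ↥(R : Subgroup L)) = 1 :=
          Subtype.ext (by
            show g₀⁻¹ * d ^ (2 * j) * g₀ = 1
            rw [e1]; group)
        rw [e2, map_one, pow_mul, hc2, one_pow]
      · have e1 : d ^ (2 * j + 1) = d := by
          rw [pow_succ, pow_mul, pow_two, hdsq, one_pow, one_mul]
        have e0 : g₀⁻¹ * d ^ (2 * j + 1) * g₀ = g₀⁻¹ * d * g₀⁻¹⁻¹ := by rw [e1, inv_inv]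
        have hk' : g₀⁻¹ * d * g₀⁻¹⁻¹ ∈ R := by rw [← e0]; exact hk
        have e3 : c ^ (2 * j + 1) = c := by rw [pow_succ, pow_mul, hc2, one_pow, one_mul]
        rw [e3]
        rcases Fus hc hdZ g₀⁻¹ hk' with h1 | ⟨a, ha, h1⟩
        · have e2 : (⟨g₀⁻¹ * d ^ (2 * j + 1) * g₀, hk⟩ : ↥(R : Subgroup L)) = ⟨d, hd⟩ :=
            Subtype.ext (by
              show g₀⁻¹ * d ^ (2 * j + 1) * g₀ = d
              rw [e0, h1])
          rw [e2, hcdef]
        · have e2 : (⟨g₀⁻¹ * d ^ (2 * j + 1) * g₀, hk⟩ : ↥(R : Subgroup L)) =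
              ⟨a, ha.1⟩ * ⟨d, hd⟩ :=
            Subtype.ext (by
              show g₀⁻¹ * d ^ (2 * j + 1) * g₀ = a * d
              rw [e0, h1])
          rw [e2, map_mul, (hlam a ha.1).2 (hOK a ha), one_mul, hcdef]
    have h1 := transfer_const lam d c key
    have h2 : c ^ (R : Subgroup L).index = 1 := by
      rw [← h1]; exact hom_trivial_of_simple hL _ _
    have h3 : orderOf c ∣ Nat.gcd ((R : Subgroup L).index) 2 :=
      Nat.dvd_gcd (orderOf_dvd_of_pow_eq_one h2) (orderOf_dvd_of_pow_eq_one hc2)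
    have h4 : Nat.gcd ((R : Subgroup L).index) 2 = 1 :=
      ((Nat.Prime.coprime_iff_not_dvd Nat.prime_two).mpr hodd).symm
    rw [h4, Nat.dvd_one] at h3
    have h5 : c = 1 := orderOf_eq_one_iff.mp h3
    rw [hcdef] at h5
    exact (hlam d hd).1 h5
  have claim1 : ∀ x ∈ R, Commute x t → Commute x v → x ∈ K := by
    intro x hx hxt hxv
    apply hZK x hx
    intro r hr
    by_cases hrt : Commute r t
    · exact O_commute hc ht hr hx hrt hxt
    · have h1 : Commute (r * v) t := hc.par hr hvR htR hrt hvt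
      have h2 : Commute (r * v) x := O_commute hc ht (hc.mul_mem hr hvR) hx h1 hxt
      have h3 : Commute (r * v * v⁻¹) x := h2.mul_left hxv.symm.inv_left
      simpa using h3
  have claim2 : ∀ x ∈ R, Commute x t → x ∈ K := by
    intro x hx hxt
    by_cases hxv : Commute x v
    · exact claim1 x hx hxt hxv
    · have h1 : Commute (x * t) v := hc.par hx htR hvR hxv (fun hh => hvt hh.symm)
      have h2 : Commute (x * t) t := hxt.mul_left (Commute.refl t)
      have h3 := claim1 _ (hc.mul_mem hx htR) h2 h1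
      have : x = x * t * t⁻¹ := by group
      rw [this]; exact K.mul_mem h3 (K.inv_mem htK)
  have claim3 : ∀ x ∈ R, x ∈ K := by
    intro x hx
    by_cases hxt : Commute x t
    · exact claim2 x hx hxt
    · have h1 : Commute (x * v) t := hc.par hx hvR htR hxt hvt
      have h3 := claim2 _ (hc.mul_mem hx hvR) h1
      have : x = x * v * v⁻¹ := by group
      rw [this]; exact K.mul_mem h3 (K.inv_mem hvK)
  have hRK : (R : Subgroup L) = K := le_antisymm claim3 hKR
  have hto : orderOf t = 2 := orderOf_eq_prime (by rw [pow_two]; exact htsq) htne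
  have hvne : v ≠ 1 := by
    intro e; apply hvt; rw [e]; exact Commute.one_left t
  have hvo : orderOf v = 2 := orderOf_eq_prime (by rw [pow_two]; exact hvsq) hvne
  have htv : t ≠ v := by
    intro e; apply hvt; rw [← e]
  have htv2 : (t * v) ^ 2 = z := by
    rw [pow_two]
    calc t * v * (t * v) = t * (v * t) * v := by simp only [mul_assoc]
      _ = t * (z * (t * v)) * v := by rw [e_vt]
      _ = t * z * t * (v * v) := by simp only [mul_assoc]
      _ = t * z * t := by rw [hvsq, mul_one]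
      _ = t * (z * t) := by rw [mul_assoc]
      _ = t * (t * z) := by rw [hzt]
      _ = z := by rw [← mul_assoc, htsq, one_mul]
  have ho : orderOf (t * v) = 4 := by
    have := orderOf_eq_prime_pow (x := t * v) (n := 1) (p := 2)
      (by rw [pow_one, htv2]; exact hc.ne) (by
        have : (2 : ℕ) ^ (1 + 1) = 2 * 2 := by norm_num
        rw [this, pow_mul, htv2, pow_two, hc.sq])
    simpa using this
  have hdih := Cfsg.Agent.S0206.result t v hto hvo htv
  rw [ho] at hdih
  obtain ⟨e⟩ := hdih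
  exact ⟨(MulEquiv.subgroupCongr hRK).trans e⟩

end Cfsg.Agent.Helper27.FZ
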