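import Mathlib
import Cfsg.Prelude.Def_FischerSpaces

namespace Cfsg.Agent.Helper27.Fischer

open Cfsg Cfsg.LineSystem

variable {X : Type*}

/-- third point relation -/
def T3 (L : Set (Set X)) (x y z : X) : Prop :=
  z ≠ x ∧ z ≠ y ∧ x ≠ y ∧ ({x, y, z} : Set X) ∈ L

/-- graph of the line map -/
def G3 (L : Set (Set X)) (x y w : X) : Prop :=
  T3 L x y w ∨ (w = y ∧ ∀ z, ¬ T3 L x y z)

theorem lineMap_spec (L : Set (Set X)) (x y : X) : G3 L x y (lineMap L x y) := by
  classical
  simp only [lineMap]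
  split_ifs with h
  · exact Or.inl h.choose_spec
  · exact Or.inr ⟨rfl, fun z hz => h ⟨z, hz⟩⟩

theorem T3_unique {L : Set (Set X)} (hL : IsPartialLinear L) {x y z z' : X}
    (h : T3 L x y z) (h' : T3 L x y z') : z = z' := by
  have hlm := hL _ h.2.2.2 _ h'.2.2.2 x y h.2.2.1 (by simp) (by simp) (by simp) (by simp)
  have hz : z ∈ ({x, y, z'} : Set X) := by rw [← hlm]; simp
  rcases hz with hz | hz | hz
  · exact absurd hz h.1
  · exact absurd hz h.2.1
  · exact hz

theorem G3_unique {L : Set (Set X)} (hL : IsPartialLinear L) {x y w w' : X}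
    (h : G3 L x y w) (h' : G3 L x y w') : w = w' := by
  rcases h with h | ⟨h1, h⟩ <;> rcases h' with h' | ⟨h1', h'⟩
  · exact T3_unique hL h h'
  · exact absurd h (h' _)
  · exact absurd h' (h _)
  · rw [h1, h1']

theorem lineMap_eq {L : Set (Set X)} (hL : IsPartialLinear L) {x y w : X} (h : G3 L x y w) :
    lineMap L x y = w :=
  G3_unique hL (lineMap_spec L x y) h

theorem T3_symm23 {L : Set (Set X)} {x y z : X} (h : T3 L x y z) : T3 L x z y := by
  refine ⟨h.2.2.1.symm, h.2.1.symm, h.1.symm, ?_⟩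
  rw [Set.pair_comm z y]; exact h.2.2.2

theorem T3_symm12 {L : Set (Set X)} {x y z : X} (h : T3 L x y z) : T3 L y x z := by
  refine ⟨h.2.1, h.1, h.2.2.1.symm, ?_⟩
  rw [Set.insert_comm]; exact h.2.2.2

theorem span_isSubspace (L : Set (Set X)) (S : Set X) : IsSubspace L (span L S) := by
  intro l hl x hx y hy hxy hxl hyl p hp
  rw [span, Set.mem_sInter] at hx hy ⊢
  intro T hT
  exact hT.2 l hl x (hx T hT) y (hy T hT) hxy hxl hyl hp

theorem subset_span (L : Set (Set X)) (S : Set X) : S ⊆ span L S := by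
  intro x hx
  rw [span, Set.mem_sInter]
  intro T hT
  exact hT.1 hx

theorem triple_mem_restrict {L : Set (Set X)} {S : Set X} {a b c : S} :
    ({a, b, c} : Set S) ∈ restrict L S ↔ ({(a : X), (b : X), (c : X)} : Set X) ∈ L := by
  constructor
  · rintro ⟨l, hl, hlS, heq⟩
    have hl' : l = {(a : X), (b : X), (c : X)} := by
      ext q
      constructor
      · intro hq
        have : (⟨q, hlS hq⟩ : S) ∈ ({a, b, c} : Set S) := by rw [heq]; exact hq
        simp only [Set.mem_insert_iff, Set.mem_singleton_iff, Subtype.ext_iff] at this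
        exact this
      · intro hq
        simp only [Set.mem_insert_iff, Set.mem_singleton_iff] at hq
        have ha : a ∈ {x : S | (x : X) ∈ l} := by rw [← heq]; simp
        have hb : b ∈ {x : S | (x : X) ∈ l} := by rw [← heq]; simp
        have hc : c ∈ {x : S | (x : X) ∈ l} := by rw [← heq]; simp
        rcases hq with rfl | rfl | rfl
        · exact ha
        · exact hb
        · exact hc
    rw [← hl']; exact hl
  · intro h
    refine ⟨_, h, ?_, ?_⟩
    · intro q hq
      simp only [Set.mem_insert_iff, Set.mem_singleton_iff] at hq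
      rcases hq with rfl | rfl | rfl
      · exact a.2
      · exact b.2
      · exact c.2
    · ext q
      simp only [Set.mem_insert_iff, Set.mem_singleton_iff, Subtype.ext_iff, Set.mem_setOf_eq]

theorem T3_restrict {L : Set (Set X)} {S : Set X} {a b c : S} :
    T3 (restrict L S) a b c ↔ T3 L (a : X) (b : X) (c : X) := by
  unfold T3
  rw [triple_mem_restrict]
  simp only [ne_eq, Subtype.ext_iff]

theorem G3_restrict {L : Set (Set X)} {S : Set X} (hS : IsSubspace L S) {x y w : X}
    (hx : x ∈ S) (hy : y ∈ S) (h : G3 L x y w) :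
    ∃ hw : w ∈ S, G3 (restrict L S) ⟨x, hx⟩ ⟨y, hy⟩ ⟨w, hw⟩ := by
  rcases h with h | ⟨h1, h⟩
  · have hw : w ∈ S := hS _ h.2.2.2 x hx y hy h.2.2.1 (by simp) (by simp) (by simp)
    exact ⟨hw, Or.inl (T3_restrict.mpr h)⟩
  · subst h1
    exact ⟨hy, Or.inr ⟨rfl, fun z hz => h z (T3_restrict.mp hz)⟩⟩

theorem triple_iso {Y : Type*} {L : Set (Set X)} {M : Set (Set Y)} {e : X ≃ Y}
    (he : IsIso L M e) (a b c : X) :
    ({a, b, c} : Set X) ∈ L ↔ ({e a, e b, e c} : Set Y) ∈ M := by
  rw [he]
  have : (⇑e '' ({a, b, c} : Set X)) = {e a, e b, e c} := by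
    simp [Set.image_insert_eq]
  rw [this]

theorem T3_iso {Y : Type*} {L : Set (Set X)} {M : Set (Set Y)} {e : X ≃ Y}
    (he : IsIso L M e) {a b c : X} : T3 L a b c ↔ T3 M (e a) (e b) (e c) := by
  unfold T3
  rw [triple_iso he]
  simp only [ne_eq, EmbeddingLike.apply_eq_iff_eq]

theorem G3_iso {Y : Type*} {L : Set (Set X)} {M : Set (Set Y)} {e : X ≃ Y}
    (he : IsIso L M e) {x y w : X} (h : G3 L x y w) : G3 M (e x) (e y) (e w) := by
  rcases h with h | ⟨h1, h⟩
  · exact Or.inl ((T3_iso he).mp h)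
  · subst h1
    refine Or.inr ⟨rfl, fun z hz => h (e.symm z) ((T3_iso he).mpr ?_)⟩
    simpa using hz

/-- the property of the model planes: `t(x)` maps lines to lines -/
def ModelP {Y : Type*} (M : Set (Set Y)) : Prop :=
  ∀ x a b c : Y, a ≠ b → c ≠ a → c ≠ b → ({a, b, c} : Set Y) ∈ M →
    ∀ a' b' c' : Y, G3 M x a a' → G3 M x b b' → G3 M x c c' → ({a', b', c'} : Set Y) ∈ M

theorem modelP_of {Y : Type*} (M : Set (Set Y)) (col : Y → Y → Prop) (f : Y → Y → Y)
    (h1 : ∀ x y z, T3 M x y z ↔ col x y ∧ z = f x y)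
    (h2 : ∀ x a b, col a b → col (f x a) (f x b) ∧ f (f x a) (f x b) = f x (f a b))
    (h3 : ∀ x y, ¬ col x y → f x y = y) : ModelP M := by
  intro x a b c hab hca hcb habc a' b' c' ha hb hc
  have key : ∀ y w, G3 M x y w → w = f x y := by
    intro y w h
    rcases h with h | ⟨h', h⟩
    · exact ((h1 _ _ _).mp h).2
    · subst h'
      have : ¬ col x w := fun hc => h (f x w) ((h1 _ _ _).mpr ⟨hc, rfl⟩)
      exact (h3 _ _ this).symm
  have hT : T3 M a b c := ⟨hca, hcb, hab, habc⟩
  obtain ⟨hcol, hcf⟩ := (h1 _ _ _).mp hT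
  rw [key _ _ ha, key _ _ hb, key _ _ hc, hcf]
  obtain ⟨h21, h22⟩ := h2 x a b hcol
  exact ((h1 _ _ _).mpr ⟨h21, h22.symm⟩).2.2.2

/-! ### the affine plane of order three -/

theorem z3a : ∀ c1 c2 c3 : ZMod 3, c1 ≠ c2 → c3 ≠ c1 → c3 ≠ c2 → c3 = -c1 - c2 := by decide
theorem z3b : ∀ a b c1 c2 : ZMod 3, a + (-c1 - c2) * b = -(a + c1 * b) - (a + c2 * b) := by decide
theorem z3c : ∀ a b : ZMod 3, -a - b = a → a = b := by decide
theorem z3d : ∀ a b : ZMod 3, -a - b = b → a = b := by decide
theorem z3e : ∀ a b : ZMod 3, -a - b = a + 2 * (b - a) := by decide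
theorem z3f : ∀ x a b : ZMod 3, -(-x - a) - (-x - b) = -x - (-a - b) := by decide
theorem z3g : ∀ a : ZMod 3, -a - a = a := by decide
theorem z3h : ∀ c : ZMod 3, c = 0 ∨ c = 1 ∨ c = 2 := by decide

theorem ag_h1 (x y z : Fin 2 → ZMod 3) :
    T3 affinePlaneThree x y z ↔ x ≠ y ∧ z = -x - y := by
  constructor
  · rintro ⟨hzx, hzy, hxy, v, w, hw, hl⟩
    refine ⟨hxy, ?_⟩
    obtain ⟨c1, h1⟩ : ∃ c : ZMod 3, x = v + c • w := by
      have : x ∈ ({x, y, z} : Set (Fin 2 → ZMod 3)) := by simp
      rw [hl] at this; exact this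
    obtain ⟨c2, h2⟩ : ∃ c : ZMod 3, y = v + c • w := by
      have : y ∈ ({x, y, z} : Set (Fin 2 → ZMod 3)) := by simp
      rw [hl] at this; exact this
    obtain ⟨c3, h3⟩ : ∃ c : ZMod 3, z = v + c • w := by
      have : z ∈ ({x, y, z} : Set (Fin 2 → ZMod 3)) := by simp
      rw [hl] at this; exact this
    have hc12 : c1 ≠ c2 := by
      intro h; apply hxy; rw [h1, h2, h]
    have hc31 : c3 ≠ c1 := by
      intro h; apply hzx; rw [h1, h3, h]
    have hc32 : c3 ≠ c2 := by
      intro h; apply hzy; rw [h2, h3, h]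
    have hc := z3a c1 c2 c3 hc12 hc31 hc32
    rw [h1, h2, h3, hc]
    funext i
    simp only [Pi.add_apply, Pi.smul_apply, Pi.neg_apply, Pi.sub_apply, smul_eq_mul]
    exact z3b _ _ _ _
  · rintro ⟨hxy, rfl⟩
    refine ⟨?_, ?_, hxy, x, y - x, sub_ne_zero.mpr (Ne.symm hxy), ?_⟩
    · intro h
      apply hxy
      funext i
      have := congrFun h i
      simp only [Pi.neg_apply, Pi.sub_apply] at this
      exact z3c _ _ this
    · intro h
      apply hxy
      funext i
      have := congrFun h i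
      simp only [Pi.neg_apply, Pi.sub_apply] at this
      exact z3d _ _ this
    · have h2 : -x - y = x + (2 : ZMod 3) • (y - x) := by
        funext i
        simp only [Pi.add_apply, Pi.smul_apply, Pi.neg_apply, Pi.sub_apply, smul_eq_mul]
        exact z3e _ _
      ext p
      simp only [Set.mem_insert_iff, Set.mem_singleton_iff, Set.mem_setOf_eq]
      constructor
      · rintro (h | h | h)
        · exact ⟨0, by rw [h]; simp⟩
        · exact ⟨1, by rw [h]; simp⟩
        · exact ⟨2, by rw [h, h2]⟩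
      · rintro ⟨c, hc⟩
        rcases z3h c with h | h | h
        · left; rw [hc, h]; simp
        · right; left; rw [hc, h]; simp
        · right; right; rw [hc, h, h2]

theorem ag_modelP : ModelP affinePlaneThree := by
  refine modelP_of _ (fun x y => x ≠ y) (fun x y => -x - y) ag_h1 ?_ ?_
  · intro x a b hab
    refine ⟨fun h => hab (sub_right_inj.mp h), ?_⟩
    funext i
    simp only [Pi.neg_apply, Pi.sub_apply]
    exact z3f _ _ _
  · intro x y h
    have hxy : x = y := not_not.mp h
    subst hxy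
    funext i
    simp only [Pi.neg_apply, Pi.sub_apply]
    exact z3g _

/-! ### the dual affine plane of order two -/

def dcol (x y : DualAffinePoint) : Prop := (x.1 ∩ y.1).card = 1

instance : DecidableRel dcol := fun x y => inferInstanceAs (Decidable ((x.1 ∩ y.1).card = 1))

theorem dcard : ∀ x y : DualAffinePoint, (x.1 ∩ y.1).card = 1 →
    ((x.1 \ y.1) ∪ (y.1 \ x.1)).card = 2 := by
  decide +kernel

def df (x y : DualAffinePoint) : DualAffinePoint :=
  if h : (x.1 ∩ y.1).card = 1 then ⟨(x.1 \ y.1) ∪ (y.1 \ x.1), dcard x y h⟩ else y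

def dlin (x y z : DualAffinePoint) : Prop :=
  ∃ i : Fin 4, ∀ s : DualAffinePoint, (s = x ∨ s = y ∨ s = z) ↔ i ∉ s.1

instance (x y z : DualAffinePoint) : Decidable (dlin x y z) := by
  unfold dlin; infer_instance

set_option maxRecDepth 100000 in
theorem dh1 : ∀ x y z : DualAffinePoint,
    (z ≠ x ∧ z ≠ y ∧ x ≠ y ∧ dlin x y z) ↔ (dcol x y ∧ z = df x y) := by
  decide +kernel

set_option maxRecDepth 100000 in
theorem dh2 : ∀ x a b : DualAffinePoint, dcol a b →
    dcol (df x a) (df x b) ∧ df (df x a) (df x b) = df x (df a b) := by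
  decide +kernel

theorem dlin_iff (x y z : DualAffinePoint) :
    ({x, y, z} : Set DualAffinePoint) ∈ dualAffinePlaneTwo ↔ dlin x y z := by
  constructor
  · rintro ⟨i, hi⟩
    refine ⟨i, fun s => ?_⟩
    have := Set.ext_iff.mp hi s
    simpa using this
  · rintro ⟨i, hi⟩
    refine ⟨i, Set.ext fun s => ?_⟩
    simpa using hi s

theorem da_modelP : ModelP dualAffinePlaneTwo := by
  refine modelP_of _ dcol df ?_ dh2 ?_
  · intro x y z
    unfold T3
    rw [dlin_iff]
    exact dh1 x y z
  · intro x y h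
    have h' : ¬ (x.1 ∩ y.1).card = 1 := h
    unfold df
    rw [dif_neg h']

/-! ### the main results -/

theorem K1 {L : Set (Set X)} (hPL : IsPartialLinear L) {x b c : X} (h : T3 L x b c) :
    ({lineMap L x x, lineMap L x b, lineMap L x c} : Set X) = {x, b, c} := by
  have h1 : lineMap L x x = x := lineMap_eq hPL (Or.inr ⟨rfl, fun z hz => hz.2.2.1 rfl⟩)
  have h2 : lineMap L x b = c := lineMap_eq hPL (Or.inl h)
  have h3 : lineMap L x c = b := lineMap_eq hPL (Or.inl (T3_symm23 h))
  rw [h1, h2, h3, Set.pair_comm c b]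

theorem main_K {L : Set (Set X)} (hL : IsFischerSpace L) (x : X) (l : Set X) (hl : l ∈ L) :
    lineMap L x '' l ∈ L := by
  obtain ⟨hPL, h3, hF⟩ := hL
  obtain ⟨a, b, c, hab, hac, hbc, rfl⟩ := Set.ncard_eq_three.mp (h3 l hl)
  have himg : lineMap L x '' {a, b, c} = {lineMap L x a, lineMap L x b, lineMap L x c} := by
    simp [Set.image_insert_eq]
  rw [himg]
  by_cases hx : x ∈ ({a, b, c} : Set X)
  · simp only [Set.mem_insert_iff, Set.mem_singleton_iff] at hx
    rcases hx with rfl | rfl | rfl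
    · have hT : T3 L x b c := ⟨hac.symm, hbc.symm, hab, hl⟩
      rw [K1 hPL hT]; exact hl
    · have hT : T3 L x a c := ⟨hbc.symm, hac.symm, hab.symm, by rw [Set.insert_comm]; exact hl⟩
      rw [Set.insert_comm, K1 hPL hT, Set.insert_comm]; exact hl
    · have hs : ({x, a, b} : Set X) = {a, b, x} := by
        ext q; simp only [Set.mem_insert_iff, Set.mem_singleton_iff]; tauto
      have hT : T3 L x a b := ⟨hbc, hab.symm, hac.symm, by rw [hs]; exact hl⟩
      have hs' : ({lineMap L x a, lineMap L x b, lineMap L x x} : Set X) =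
          {lineMap L x x, lineMap L x a, lineMap L x b} := by
        ext q; simp only [Set.mem_insert_iff, Set.mem_singleton_iff]; tauto
      rw [hs', K1 hPL hT, hs]; exact hl
  · by_cases hcol : ∃ y ∈ ({a, b, c} : Set X), ∃ z, T3 L x y z
    · obtain ⟨y, hy, z, hT⟩ := hcol
      have hm : ({x, y, z} : Set X) ∈ L := hT.2.2.2
      have hne : ({a, b, c} : Set X) ≠ {x, y, z} := by
        intro h; apply hx; rw [h]; simp
      have hmeet : (({a, b, c} : Set X) ∩ {x, y, z}).Nonempty := ⟨y, hy, by simp⟩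
      have hsub := subset_span L (({a, b, c} : Set X) ∪ {x, y, z})
      have hPs : IsSubspace L (span L (({a, b, c} : Set X) ∪ {x, y, z})) := span_isSubspace _ _
      have hxP : x ∈ span L (({a, b, c} : Set X) ∪ {x, y, z}) := hsub (Or.inr (by simp))
      have haP : a ∈ span L (({a, b, c} : Set X) ∪ {x, y, z}) := hsub (Or.inl (by simp))
      have hbP : b ∈ span L (({a, b, c} : Set X) ∪ {x, y, z}) := hsub (Or.inl (by simp))
      have hcP : c ∈ span L (({a, b, c} : Set X) ∪ {x, y, z}) := hsub (Or.inl (by simp))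
      have hmodel : ∃ (Y : Type) (M : Set (Set Y))
          (e : ↥(span L (({a, b, c} : Set X) ∪ {x, y, z})) ≃ Y),
          IsIso (restrict L (span L (({a, b, c} : Set X) ∪ {x, y, z}))) M e ∧ ModelP M := by
        rcases hF _ hl _ hm hne hmeet with ⟨e, he⟩ | ⟨e, he⟩
        · exact ⟨_, _, e, he, da_modelP⟩
        · exact ⟨_, _, e, he, ag_modelP⟩
      obtain ⟨Y, M, e, he, hP⟩ := hmodel
      obtain ⟨ha', hGa⟩ := G3_restrict hPs hxP haP (lineMap_spec L x a)
      obtain ⟨hb', hGb⟩ := G3_restrict hPs hxP hbP (lineMap_spec L x b)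
      obtain ⟨hc', hGc⟩ := G3_restrict hPs hxP hcP (lineMap_spec L x c)
      have h1 : ({⟨a, haP⟩, ⟨b, hbP⟩, ⟨c, hcP⟩} :
          Set ↥(span L (({a, b, c} : Set X) ∪ {x, y, z}))) ∈
          restrict L (span L (({a, b, c} : Set X) ∪ {x, y, z})) := triple_mem_restrict.mpr hl
      have h2 := (triple_iso he _ _ _).mp h1
      have h3' := hP (e ⟨x, hxP⟩) _ _ _ (by simpa using hab) (by simpa using hac.symm)
        (by simpa using hbc.symm) h2 _ _ _ (G3_iso he hGa) (G3_iso he hGb) (G3_iso he hGc)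
      have h4 := (triple_iso he _ _ _).mpr h3'
      exact triple_mem_restrict.mp h4
    · push Not at hcol
      have hfix : ∀ y ∈ ({a, b, c} : Set X), lineMap L x y = y := by
        intro y hy
        exact lineMap_eq hPL (Or.inr ⟨rfl, fun z hz => hcol y hy z hz⟩)
      rw [hfix a (by simp), hfix b (by simp), hfix c (by simp)]
      exact hl

theorem lineMap_invol {L : Set (Set X)} (hPL : IsPartialLinear L) (x : X) :
    Function.Involutive (lineMap L x) := by
  intro y
  rcases lineMap_spec L x y with h | ⟨h, _⟩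
  · exact lineMap_eq hPL (Or.inl (T3_symm23 h))
  · rw [h]; exact h

theorem exists_perm {L : Set (Set X)} (hL : IsFischerSpace L) (hnd : IsNondegenerate L) (x : X) :
    ∃ σ : Equiv.Perm X, ⇑σ = lineMap L x ∧ orderOf σ = 2 ∧ IsIso L L σ := by
  have hPL := hL.1
  have hinv := lineMap_invol hPL x
  refine ⟨Function.Involutive.toPerm (lineMap L x) hinv, rfl, ?_, ?_⟩
  · haveI : Fact (Nat.Prime 2) := ⟨Nat.prime_two⟩
    apply orderOf_eq_prime
    · ext y
      simp only [sq, Equiv.Perm.mul_apply, Function.Involutive.coe_toPerm, Equiv.Perm.one_apply]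
      exact hinv y
    · intro h1
      obtain ⟨l, hl, hxl⟩ := hnd x
      obtain ⟨a, b, c, hab, hac, hbc, rfl⟩ := Set.ncard_eq_three.mp (hL.2.1 l hl)
      have : ∃ y z, T3 L x y z := by
        simp only [Set.mem_insert_iff, Set.mem_singleton_iff] at hxl
        rcases hxl with rfl | rfl | rfl
        · exact ⟨b, c, hac.symm, hbc.symm, hab, hl⟩
        · exact ⟨a, c, hbc.symm, hac.symm, hab.symm, by rw [Set.insert_comm]; exact hl⟩
        · have hs : ({x, a, b} : Set X) = {a, b, x} := by
            ext q; simp only [Set.mem_insert_iff, Set.mem_singleton_iff]; tauto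
          exact ⟨a, b, hbc, hab.symm, hac.symm, by rw [hs]; exact hl⟩
      obtain ⟨y, z, hT⟩ := this
      have h2 : lineMap L x y = z := lineMap_eq hPL (Or.inl hT)
      have h3 : Function.Involutive.toPerm (lineMap L x) hinv y = y := by rw [h1]; rfl
      rw [Function.Involutive.coe_toPerm, h2] at h3
      exact hT.2.1 h3
  · intro l
    constructor
    · intro hl; exact main_K hL x l hl
    · intro hl
      have := main_K hL x _ hl
      rw [Function.Involutive.coe_toPerm, Set.image_image] at this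
      have hid : (fun y => lineMap L x (lineMap L x y)) = id := funext hinv
      rwa [hid, Set.image_id] at this

theorem conj_lineMap {L : Set (Set X)} (hPL : IsPartialLinear L) (g : Equiv.Perm X)
    (hg : IsIso L L g) (y w : X) : lineMap L (g y) (g w) = g (lineMap L y w) :=
  lineMap_eq hPL (G3_iso hg (lineMap_spec L y w))

theorem three_transp {L : Set (Set X)} (hL : IsFischerSpace L) (hnd : IsNondegenerate L) :
    IsThreeTranspositionSet {σ : Equiv.Perm X | ∃ x : X, ⇑σ = lineMap L x} := by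
  have hPL := hL.1
  have hprop : ∀ σ : Equiv.Perm X, ∀ x : X, ⇑σ = lineMap L x →
      orderOf σ = 2 ∧ IsIso L L σ := by
    intro σ x hσ
    obtain ⟨σ', h1, h2, h3⟩ := exists_perm hL hnd x
    have : σ = σ' := DFunLike.coe_injective (hσ.trans h1.symm)
    rw [this]; exact ⟨h2, h3⟩
  refine ⟨fun σ ⟨x, hσ⟩ => (hprop σ x hσ).1, ?_⟩
  rintro σ ⟨x, hσ⟩ τ ⟨y, hτ⟩
  have hσi : ∀ w, σ (σ w) = w := by
    intro w; rw [hσ]; exact lineMap_invol hPL x w
  have hτi : ∀ w, τ (τ w) = w := by
    intro w; rw [hτ]; exact lineMap_invol hPL y w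
  have hσa := (hprop σ x hσ).2
  have hτa := (hprop τ y hτ).2
  -- σ τ σ = t(σ y)
  have hc1 : ∀ w, σ (τ (σ w)) = lineMap L (σ y) w := by
    intro w
    have := conj_lineMap hPL σ hσa y (σ w)
    rw [hσi] at this
    rw [this, hτ]
  have hc2 : ∀ w, τ (σ (τ w)) = lineMap L (τ x) w := by
    intro w
    have := conj_lineMap hPL τ hτa x (τ w)
    rw [hτi] at this
    rw [this, hσ]
  rcases lineMap_spec L x y with h | ⟨h, _⟩
  · right
    have h1 : σ y = lineMap L x y := by rw [hσ]
    have h2 : τ x = lineMap L x y := by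
      rw [hτ]; exact lineMap_eq hPL (Or.inl (T3_symm12 h))
    ext w
    simp only [pow_succ, pow_zero, one_mul, Equiv.Perm.mul_apply, Equiv.Perm.one_apply]
    have e1 : σ (τ (σ (τ (σ (τ w))))) = lineMap L (σ y) (τ (σ (τ w))) := hc1 _
    rw [e1, hc2 w, h1, h2]
    exact lineMap_invol hPL _ w
  · left
    have h1 : σ y = y := by rw [hσ]; exact h
    ext w
    simp only [pow_succ, pow_zero, one_mul, Equiv.Perm.mul_apply, Equiv.Perm.one_apply]
    rw [hc1, h1, ← hτ]
    exact hτi w

end Cfsg.Agent.Helper27.Fischer
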