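import Mathlib

set_option autoImplicit false

namespace Cfsg.Agent.Helper27.HW

open Polynomial in
theorem geom_eq_pow (p : ℕ) [hp : Fact p.Prime] :
    (∑ i ∈ Finset.range p, (Polynomial.X : (ZMod p)[X]) ^ i) = (Polynomial.X - 1) ^ (p - 1) := by
  have h1 : (∑ i ∈ Finset.range p, (Polynomial.X : (ZMod p)[X]) ^ i) * (Polynomial.X - 1) =
      Polynomial.X ^ p - 1 := geom_sum_mul _ _
  have h2 : ((Polynomial.X : (ZMod p)[X]) - 1) ^ (p - 1) * (Polynomial.X - 1) =
      Polynomial.X ^ p - 1 := by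
    rw [← pow_succ, Nat.sub_add_cancel hp.out.one_le, sub_pow_char, one_pow]
  have hne : (Polynomial.X : (ZMod p)[X]) - 1 ≠ 0 := by
    have := Polynomial.X_sub_C_ne_zero (1 : ZMod p)
    simpa using this
  exact mul_right_cancel₀ hne (h1.trans h2.symm)

/-- Engel lemma, additive form. -/
theorem engel_sum {G : Type*} [Group G] (p : ℕ) [hp : Fact p.Prime] (E : Subgroup G) (w : G)
    (hwE : ∀ y ∈ E, w⁻¹ * y * w ∈ E)
    (hEng : ∀ y ∈ E, (fun y : G => y⁻¹ * w⁻¹ * y * w)^[p - 1] y = 1)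
    (f : ↥E → ZMod p) (hf : ∀ y z : ↥E, f (y * z) = f y + f z) (y : ↥E) :
    ∑ i ∈ Finset.range p, f ((fun y : ↥E => (⟨w⁻¹ * y * w, hwE y y.2⟩ : ↥E))^[i] y) = 0 := by
  obtain ⟨α, hα⟩ : ∃ α : ↥E → ↥E, α = fun y : ↥E => (⟨w⁻¹ * y * w, hwE y y.2⟩ : ↥E) := ⟨_, rfl⟩
  rw [← hα]
  have hαmul : ∀ y z : ↥E, α (y * z) = α y * α z := by
    intro y z
    rw [hα]
    apply Subtype.ext
    show w⁻¹ * ((y : G) * z) * w = (w⁻¹ * y * w) * (w⁻¹ * z * w)
    group
  obtain ⟨c, hc⟩ : ∃ c : ↥E → ↥E, c = fun y : ↥E => y⁻¹ * α y := ⟨_, rfl⟩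
  obtain ⟨T, hT⟩ : ∃ T : (↥E → ZMod p) →ₗ[ZMod p] (↥E → ZMod p),
      T = LinearMap.funLeft (ZMod p) (ZMod p) α := ⟨_, rfl⟩
  have hTapp : ∀ (g : ↥E → ZMod p) (y : ↥E), T g y = g (α y) := by
    intro g y; rw [hT]; rfl
  have h_pow : ∀ (i : ℕ) (g : ↥E → ZMod p) (y : ↥E), (T ^ i) g y = g (α^[i] y) := by
    intro i
    induction i with
    | zero => intro g y; rfl
    | succ i ih =>
      intro g y
      rw [pow_succ, Module.End.mul_apply, ih, hTapp, Function.iterate_succ_apply']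
  have hT1 : ∀ (g : ↥E → ZMod p) (y : ↥E), (T - 1) g y = g (α y) - g y := by
    intro g y
    show T g y - g y = _
    rw [hTapp]
  have hadd1 : ∀ g : ↥E → ZMod p, (∀ y z : ↥E, g (y * z) = g y + g z) →
      ∀ y z : ↥E, (T - 1) g (y * z) = (T - 1) g y + (T - 1) g z := by
    intro g hg y z
    rw [hT1, hT1, hT1, hαmul, hg, hg]
    ring
  have hsub1 : ∀ g : ↥E → ZMod p, (∀ y z : ↥E, g (y * z) = g y + g z) →
      ∀ y : ↥E, (T - 1) g y = g (c y) := by
    intro g hg y
    rw [hT1, hc]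
    have e : α y = y * (y⁻¹ * α y) := by group
    show g (α y) - g y = g (y⁻¹ * α y)
    rw [e, hg]
    have e2 : y⁻¹ * (y * (y⁻¹ * α y)) = y⁻¹ * α y := by group
    rw [e2]
    ring
  have h_sub : ∀ (k : ℕ) (g : ↥E → ZMod p), (∀ y z : ↥E, g (y * z) = g y + g z) →
      ∀ y : ↥E, ((T - 1) ^ k) g y = g (c^[k] y) := by
    intro k
    induction k with
    | zero => intro g _ y; rfl
    | succ k ih =>
      intro g hg y
      rw [pow_succ, Module.End.mul_apply, ih _ (hadd1 g hg), hsub1 g hg,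
        Function.iterate_succ_apply']
  have hcapp : ∀ y : ↥E, ((c y : ↥E) : G) = (y : G)⁻¹ * w⁻¹ * y * w := by
    intro y
    rw [hc, hα]
    show (y : G)⁻¹ * (w⁻¹ * y * w) = _
    group
  have hcoe : ∀ (k : ℕ) (y : ↥E), ((c^[k] y : ↥E) : G) =
      (fun y : G => y⁻¹ * w⁻¹ * y * w)^[k] (y : G) := by
    intro k
    induction k with
    | zero => intro y; rfl
    | succ k ih =>
      intro y
      rw [Function.iterate_succ_apply', Function.iterate_succ_apply', hcapp, ih]
  have hc1 : c^[p - 1] y = 1 := by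
    apply Subtype.ext
    rw [hcoe]
    exact hEng y y.2
  have hf1 : f 1 = 0 := by
    have := hf 1 1
    rw [mul_one] at this
    exact (add_eq_left.mp this.symm)
  have hpoly := congrArg (Polynomial.aeval T) (geom_eq_pow p)
  simp only [map_sum, map_pow, Polynomial.aeval_X, map_sub, map_one] at hpoly
  have h3 := congrFun (LinearMap.congr_fun hpoly f) y
  rw [LinearMap.sum_apply, Finset.sum_apply, h_sub (p - 1) f hf y, hc1, hf1] at h3
  rw [← h3]
  exact Finset.sum_congr rfl (fun i _ => (h_pow i f y).symm)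

theorem iterate_conj_coe {G : Type*} [Group G] (E : Subgroup G) (w : G)
    (hwE : ∀ y ∈ E, w⁻¹ * y * w ∈ E) (i : ℕ) (y : ↥E) :
    (((fun y : ↥E => (⟨w⁻¹ * y * w, hwE y y.2⟩ : ↥E))^[i] y : ↥E) : G) =
      (w ^ i)⁻¹ * y * w ^ i := by
  induction i with
  | zero => simp
  | succ i ih =>
    rw [Function.iterate_succ_apply']
    show w⁻¹ * (((fun y : ↥E => (⟨w⁻¹ * y * w, hwE y y.2⟩ : ↥E))^[i] y : ↥E) : G) * w = _
    rw [ih, pow_succ]
    group

/-- Product over the non-fixed points of a permutation of prime order. -/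
theorem perm_prod_nonfixed (p : ℕ) [hp : Fact p.Prime] {X : Type*} [Fintype X] [DecidableEq X]
    (σ : Equiv.Perm X) (hσ : σ ^ p = 1) {A : Type*} [CommGroup A] (F : X → A)
    (h2 : ∀ q, σ q ≠ q → ∏ i ∈ Finset.range p, F ((σ ^ i) q) = 1) :
    ∀ (n : ℕ) (s : Finset X), s.card = n → (∀ q ∈ s, σ q ∈ s) → (∀ q ∈ s, σ q ≠ q) →
      ∏ q ∈ s, F q = 1 := by
  intro n
  induction n using Nat.strong_induction_on with
  | _ n ih =>
    intro s hcard hcl hnf
    by_cases hs : s = ∅
    · rw [hs, Finset.prod_empty]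
    obtain ⟨q, hq⟩ := Finset.nonempty_iff_ne_empty.2 hs
    have hpow_mem : ∀ i : ℕ, (σ ^ i) q ∈ s := by
      intro i
      induction i with
      | zero => simpa using hq
      | succ i ihi =>
        rw [pow_succ', Equiv.Perm.mul_apply]
        exact hcl _ ihi
    have hfix : ∀ k : ℕ, 0 < k → k < p → (σ ^ k) q ≠ q := by
      intro k hk0 hkp hkq
      have hcop : Nat.Coprime k p := (Nat.coprime_of_lt_prime hk0.ne' hkp hp.out).symm
      have hmul : ∀ m : ℕ, (σ ^ (k * m)) q = q := by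
        intro m
        induction m with
        | zero => simp
        | succ m ihm =>
          rw [Nat.mul_succ, pow_add, Equiv.Perm.mul_apply, hkq, ihm]
      obtain ⟨m, -, hm⟩ := Nat.exists_mul_mod_eq_one_of_coprime hcop hp.out.one_lt
      have h1 := hmul m
      rw [pow_eq_pow_mod (k * m) hσ, hm, pow_one] at h1
      exact hnf q hq h1
    have hinj : Set.InjOn (fun i : ℕ => (σ ^ i) q) (Finset.range p : Set ℕ) := by
      have key : ∀ i j : ℕ, i < j → j < p → (σ ^ i) q ≠ (σ ^ j) q := by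
        intro i j hij hjp heq
        apply hfix (j - i) (Nat.sub_pos_of_lt hij) (lt_of_le_of_lt (Nat.sub_le j i) hjp)
        have e : σ ^ j = σ ^ i * σ ^ (j - i) := by
          rw [← pow_add, Nat.add_sub_cancel' hij.le]
        rw [e, Equiv.Perm.mul_apply] at heq
        exact ((σ ^ i).injective heq).symm
      intro i hi j hj heq
      have hi' := Finset.mem_range.1 hi
      have hj' := Finset.mem_range.1 hj
      rcases lt_trichotomy i j with h | h | h
      · exact absurd heq (key i j h hj')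
      · exact h
      · exact absurd heq.symm (key j i h hi')
    obtain ⟨O, hO⟩ : ∃ O : Finset X, O = (Finset.range p).image (fun i : ℕ => (σ ^ i) q) :=
      ⟨_, rfl⟩
    have hOs : O ⊆ s := by
      intro y hy
      rw [hO, Finset.mem_image] at hy
      obtain ⟨i, -, rfl⟩ := hy
      exact hpow_mem i
    have hOprod : ∏ y ∈ O, F y = 1 := by
      rw [hO, Finset.prod_image hinj]
      exact h2 q (hnf q hq)
    have hqO : q ∈ O := by
      rw [hO, Finset.mem_image]
      exact ⟨0, Finset.mem_range.2 hp.out.pos, by simp⟩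
    have hcl' : ∀ y ∈ s \ O, σ y ∈ s \ O := by
      intro y hy
      rw [Finset.mem_sdiff] at hy ⊢
      refine ⟨hcl y hy.1, fun hσy => hy.2 ?_⟩
      rw [hO, Finset.mem_image] at hσy ⊢
      obtain ⟨i, -, hi⟩ := hσy
      refine ⟨(i + (p - 1)) % p, Finset.mem_range.2 (Nat.mod_lt _ hp.out.pos), ?_⟩
      show (σ ^ ((i + (p - 1)) % p)) q = y
      rw [← pow_eq_pow_mod (i + (p - 1)) hσ]
      apply σ.injective
      rw [← hi, ← Equiv.Perm.mul_apply, ← pow_succ']
      have e : i + (p - 1) + 1 = p + i := by have := hp.out.one_le; omega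
      rw [e, pow_add, hσ, one_mul]
    have hlt : (s \ O).card < n := by
      rw [← hcard]
      exact Finset.card_lt_card (Finset.sdiff_ssubset hOs ⟨q, hqO⟩)
    have h3 := ih (s \ O).card hlt (s \ O) rfl hcl' (fun y hy => hnf y (Finset.mem_sdiff.1 hy).1)
    rw [← Finset.prod_sdiff hOs, h3, hOprod, one_mul]

theorem perm_prod (p : ℕ) [hp : Fact p.Prime] {X : Type*} [Fintype X] [DecidableEq X]
    (σ : Equiv.Perm X) (hσ : σ ^ p = 1) {A : Type*} [CommGroup A] (F : X → A) (c : A)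
    (h1 : ∀ q, σ q = q → F q = c)
    (h2 : ∀ q, σ q ≠ q → ∏ i ∈ Finset.range p, F ((σ ^ i) q) = 1) :
    ∏ q, F q = c ^ (Finset.univ.filter (fun q => σ q = q)).card := by
  rw [← Finset.prod_filter_mul_prod_filter_not Finset.univ (fun q => σ q = q)]
  have e1 : ∏ q ∈ Finset.univ.filter (fun q => σ q = q), F q =
      c ^ (Finset.univ.filter (fun q => σ q = q)).card := by
    rw [← Finset.prod_const]
    exact Finset.prod_congr rfl (fun q hq => h1 q (Finset.mem_filter.1 hq).2)
  have e2 : ∏ q ∈ Finset.univ.filter (fun q => ¬ σ q = q), F q = 1 := by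
    apply perm_prod_nonfixed p σ hσ F h2 _ _ rfl
    · intro q hq
      rw [Finset.mem_filter] at hq ⊢
      exact ⟨Finset.mem_univ _, fun h => hq.2 (σ.injective h)⟩
    · intro q hq
      exact (Finset.mem_filter.1 hq).2
  rw [e1, e2, mul_one]

theorem perm_fixed_card (p : ℕ) [hp : Fact p.Prime] {X : Type*} [Fintype X] [DecidableEq X]
    (σ : Equiv.Perm X) (hσ : σ ^ p = 1) :
    (Finset.univ.filter (fun q => σ q = q)).card ≡ Fintype.card X [MOD p] := by
  have h := Equiv.Perm.card_compl_support_modEq (p := p) (n := 1) (σ := σ) (by rwa [pow_one])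
  have e : σ.supportᶜ = Finset.univ.filter (fun q => σ q = q) := by
    ext q
    simp [Equiv.Perm.mem_support]
  rw [e] at h
  exact h

end Cfsg.Agent.Helper27.HW
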