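import Cfsg.Agent.Helper27.HWa
import Cfsg.Agent.Helper26.SylowAux
import Cfsg.Agent.Helper26.GroupFusion
import Cfsg.Agent.Helper26.FusionSat2
import Cfsg.Agent.Helper27.NormalSub

set_option autoImplicit false

namespace Cfsg.Agent.Helper27.HW

open Cfsg Cfsg.Agent.Helper26

theorem exists_w {G : Type*} [Group G] (p : ℕ) [hp : Fact p.Prime] (P : Subgroup G) [Finite P]
    (hP : IsPGroup p P) (W E : Subgroup G) (hWP : W ≤ P)
    (hWn : ∀ r ∈ P, ∀ z ∈ W, r * z * r⁻¹ ∈ W) (hEP : E ≤ P) (hWE : ¬ W ≤ E) :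
    ∃ w ∈ W, w ∉ E ∧ w ∈ Subgroup.normalizer (E : Set G) ∧ w ^ p ∈ E := by
  classical
  haveI := hP.isNilpotent
  obtain ⟨n, hn⟩ := Group.IsNilpotent.nilpotent ↥P
  have hex : ∃ i, ∃ w : ↥P, (w : G) ∈ W ∧ (w : G) ∉ E ∧
      w ∈ Subgroup.upperCentralSeries ↥P i := by
    obtain ⟨w, hwW, hwE⟩ := SetLike.not_le_iff_exists.1 hWE
    exact ⟨n, ⟨w, hWP hwW⟩, hwW, hwE, by rw [hn]; trivial⟩
  obtain ⟨w, hwW, hwE, hwZ⟩ := Nat.find_spec hex
  have hmin := fun j (hj : j < Nat.find hex) => Nat.find_min hex hj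
  obtain ⟨j, hj⟩ : ∃ j, Nat.find hex = j + 1 := by
    rcases Nat.eq_zero_or_eq_succ_pred (Nat.find hex) with h | h
    · rw [h, Subgroup.upperCentralSeries_zero, Subgroup.mem_bot] at hwZ
      exfalso; apply hwE; rw [hwZ]; exact E.one_mem
    · exact ⟨_, h⟩
  rw [hj] at hwZ
  have hnotj : ∀ v : ↥P, (v : G) ∈ W → v ∈ Subgroup.upperCentralSeries ↥P j → (v : G) ∈ E := by
    intro v hvW hvZ
    by_contra hvE
    exact hmin j (by rw [hj]; exact Nat.lt_succ_self j) ⟨v, hvW, hvE, hvZ⟩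
  have hconj : ∀ u : ↥P, (u : G) ∈ W → u ∈ Subgroup.upperCentralSeries ↥P (j + 1) →
      ∀ y ∈ E, (u : G) * y * (u : G)⁻¹ ∈ E := by
    intro u huW huZ y hy
    rw [Subgroup.mem_upperCentralSeries_succ_iff] at huZ
    have h1 := huZ ⟨y, hEP hy⟩
    have h2 : ((u * (⟨y, hEP hy⟩ : ↥P) * u⁻¹ * (⟨y, hEP hy⟩ : ↥P)⁻¹ : ↥P) : G) ∈ W := by
      show (u : G) * y * (u : G)⁻¹ * y⁻¹ ∈ W
      have := hWn y (hEP hy) (u : G)⁻¹ (W.inv_mem huW)
      have e : (u : G) * y * (u : G)⁻¹ * y⁻¹ = (u : G) * (y * (u : G)⁻¹ * y⁻¹) := by group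
      rw [e]; exact W.mul_mem huW this
    have h3 := hnotj _ h2 h1
    have e : (u : G) * y * (u : G)⁻¹ = ((u : G) * y * (u : G)⁻¹ * y⁻¹) * y := by group
    rw [e]; exact E.mul_mem h3 hy
  have hwN : (w : G) ∈ Subgroup.normalizer (E : Set G) := by
    rw [Subgroup.mem_normalizer_iff]
    intro y
    constructor
    · exact hconj w hwW hwZ y
    · intro hy
      have h := hconj w⁻¹ (W.inv_mem hwW) (Subgroup.inv_mem _ hwZ) _ hy
      have e : ((w⁻¹ : ↥P) : G) * ((w : G) * y * (w : G)⁻¹) * ((w⁻¹ : ↥P) : G)⁻¹ = y := by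
        show (w : G)⁻¹ * ((w : G) * y * (w : G)⁻¹) * (w : G)⁻¹⁻¹ = y
        group
      rwa [e] at h
  obtain ⟨k, hk⟩ := hP w
  have hex2 : ∃ k, (w : G) ^ p ^ k ∈ E := by
    refine ⟨k, ?_⟩
    have h1 := congrArg Subtype.val hk
    have h2 : (w : G) ^ p ^ k = 1 := h1
    rw [h2]; exact E.one_mem
  have hk0 : Nat.find hex2 ≠ 0 := by
    intro h0
    have := Nat.find_spec hex2
    rw [h0, pow_zero, pow_one] at this
    exact hwE this
  obtain ⟨m, hm⟩ := Nat.exists_eq_succ_of_ne_zero hk0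
  refine ⟨(w : G) ^ p ^ m, W.pow_mem hwW _, ?_, Subgroup.pow_mem _ hwN _, ?_⟩
  · exact Nat.find_min hex2 (by rw [hm]; exact Nat.lt_succ_self m)
  · have := Nat.find_spec hex2
    rw [hm, pow_succ, pow_mul] at this
    exact this

theorem pow_inj_of_coprime {A : Type*} [Group A] (p : ℕ) [hp : Fact p.Prime]
    (hA : ∀ a : A, a ^ p = 1) {m : ℕ} (hm : ¬ p ∣ m) {a b : A} (h : a ^ m = b ^ m) : a = b := by
  have hcop : Nat.Coprime m p := ((Nat.Prime.coprime_iff_not_dvd hp.out).2 hm).symm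
  obtain ⟨k, -, hk⟩ := Nat.exists_mul_mod_eq_one_of_coprime hcop hp.out.one_lt
  have ha : a ^ (m * k) = a := by rw [pow_eq_pow_mod (m * k) (hA a), hk, pow_one]
  have hb : b ^ (m * k) = b := by rw [pow_eq_pow_mod (m * k) (hA b), hk, pow_one]
  rw [← ha, ← hb, pow_mul, pow_mul, h]

theorem zmod_mul_pow (p : ℕ) [hp : Fact p.Prime] (a : Multiplicative (ZMod p)) : a ^ p = 1 := by
  have hAcard : Nat.card (Multiplicative (ZMod p)) = p := by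
    rw [Nat.card_eq_fintype_card, Fintype.card_multiplicative, ZMod.card]
  have := pow_card_eq_one' (x := a)
  rwa [hAcard] at this

/-- The local step of the Hall–Wielandt argument. -/
theorem hw_local {G : Type*} [Group G] [Finite G] (p : ℕ) [hp : Fact p.Prime] (P : Sylow p G)
    (W : Subgroup G) (hWP : W ≤ (P : Subgroup G))
    (hWn : ∀ r ∈ (P : Subgroup G), ∀ z ∈ W, r * z * r⁻¹ ∈ W)
    (hE : ∀ u ∈ (P : Subgroup G), ∀ z ∈ W, (fun y : G => y⁻¹ * z⁻¹ * y * z)^[p - 1] u = 1)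
    (Θ : G → Multiplicative (ZMod p))
    (hmul : ∀ x ∈ (P : Subgroup G), ∀ y ∈ (P : Subgroup G), Θ (x * y) = Θ x * Θ y)
    (E : Subgroup G) (hEP : E ≤ (P : Subgroup G)) (hWE : ¬ W ≤ E)
    (L : Subgroup G) (hLdef : L = Subgroup.normalizer (E : Set G))
    (R : Subgroup G) (hRdef : R = L ⊓ (P : Subgroup G))
    (hSyl : ∃ S : Sylow p ↥L, (S : Subgroup ↥L) = R.subgroupOf L)
    (hIH : ∀ U : Subgroup G, U ≤ (P : Subgroup G) → Nat.card E < Nat.card U →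
      ∀ g : G, (∀ x ∈ U, g * x * g⁻¹ ∈ (P : Subgroup G)) → ∀ x ∈ U, Θ (g * x * g⁻¹) = Θ x) :
    ∀ l ∈ L, ∀ y ∈ E, Θ (l * y * l⁻¹) = Θ y := by
  classical
  intro l₀ hl₀ y₀ hy₀
  have hRP : R ≤ (P : Subgroup G) := hRdef ▸ inf_le_right
  have hER : E ≤ R := by
    rw [hRdef]; exact le_inf (by rw [hLdef]; exact Subgroup.le_normalizer) hEP
  have hLconj : ∀ l ∈ L, ∀ y ∈ E, l * y * l⁻¹ ∈ E := by
    intro l hl y hy; rw [hLdef] at hl; exact (Subgroup.mem_normalizer_iff.1 hl y).1 hy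
  have hLconj' : ∀ l ∈ L, ∀ y ∈ E, l⁻¹ * y * l ∈ E := by
    intro l hl y hy
    have := hLconj l⁻¹ (L.inv_mem hl) y hy
    rwa [inv_inv] at this
  have hΘ1 : Θ 1 = 1 := by
    have := hmul 1 (Subgroup.one_mem _) 1 (Subgroup.one_mem _)
    rw [mul_one] at this
    exact mul_eq_left.mp this.symm
  have hΘconj : ∀ r ∈ (P : Subgroup G), ∀ z ∈ (P : Subgroup G), Θ (r⁻¹ * z * r) = Θ z := by
    intro r hr z hz
    have hr' := Subgroup.inv_mem _ hr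
    rw [hmul _ (Subgroup.mul_mem _ hr' hz) _ hr, hmul _ hr' _ hz]
    have h1 : Θ r⁻¹ * Θ r = 1 := by rw [← hmul _ hr' _ hr, inv_mul_cancel, hΘ1]
    rw [mul_comm (Θ r⁻¹), mul_assoc, h1, mul_one]
  obtain ⟨w, hwW, hwE, hwN, hwp⟩ := exists_w p (P : Subgroup G) P.isPGroup' W E hWP hWn hEP hWE
  have hwP : w ∈ (P : Subgroup G) := hWP hwW
  have hwL : w ∈ L := by rw [hLdef]; exact hwN
  have hwE' : ∀ y ∈ E, w⁻¹ * y * w ∈ E := hLconj' w hwL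
  have hEng : ∀ y ∈ E, (fun y : G => y⁻¹ * w⁻¹ * y * w)^[p - 1] y = 1 :=
    fun y hy => hE y (hEP hy) w hwW
  obtain ⟨RL, hRLdef⟩ : ∃ RL : Subgroup ↥L, RL = R.subgroupOf L := ⟨_, rfl⟩
  rw [← hRLdef] at hSyl
  obtain ⟨X, hX⟩ : ∃ X : Type _, X = (↥L ⧸ RL) := ⟨_, rfl⟩
  subst hX
  haveI : Fintype (↥L ⧸ RL) := Fintype.ofFinite _
  obtain ⟨wL, hwLdef⟩ : ∃ wL : ↥L, wL = ⟨w, hwL⟩ := ⟨_, rfl⟩
  obtain ⟨σ, hσdef⟩ : ∃ σ : Equiv.Perm (↥L ⧸ RL), σ = MulAction.toPermHom ↥L (↥L ⧸ RL) wL :=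
    ⟨_, rfl⟩
  have hσpow : ∀ (i : ℕ) (l : ↥L), (σ ^ i) (QuotientGroup.mk l : ↥L ⧸ RL) =
      QuotientGroup.mk (wL ^ i * l) := by
    intro i l
    rw [hσdef, ← map_pow]
    rfl
  have hσp : σ ^ p = 1 := by
    ext q
    induction q using QuotientGroup.induction_on with
    | H l =>
      rw [hσpow, Equiv.Perm.one_apply]
      apply QuotientGroup.eq.2
      rw [hRLdef, Subgroup.mem_subgroupOf]
      have e : (((wL ^ p * l)⁻¹ * l : ↥L) : G) = (l : G)⁻¹ * (w ^ p)⁻¹ * (l : G) := by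
        rw [hwLdef]
        show ((w ^ p) * (l : G))⁻¹ * (l : G) = _
        group
      rw [e]
      exact hER (hLconj' l l.2 _ (E.inv_mem hwp))
  obtain ⟨F, hFdef⟩ : ∃ F : G → (↥L ⧸ RL) → Multiplicative (ZMod p),
      F = fun y q => Θ ((q.out : G)⁻¹ * y * (q.out : G)) := ⟨_, rfl⟩
  have hWD : ∀ (l : ↥L) (y : G), y ∈ E →
      F y (QuotientGroup.mk l) = Θ ((l : G)⁻¹ * y * (l : G)) := by
    intro l y hy
    obtain ⟨r, hr⟩ := QuotientGroup.mk_out_eq_mul RL l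
    rw [hFdef]
    show Θ ((((QuotientGroup.mk l : ↥L ⧸ RL).out : ↥L) : G)⁻¹ * y *
      (((QuotientGroup.mk l : ↥L ⧸ RL).out : ↥L) : G)) = _
    rw [hr]
    have hrR : ((r : ↥L) : G) ∈ R := by
      have h' : (r : ↥L) ∈ R.subgroupOf L := by rw [← hRLdef]; exact r.2
      exact Subgroup.mem_subgroupOf.1 h' 
    have e : (((l * (r : ↥L) : ↥L)) : G)⁻¹ * y * ((l * (r : ↥L) : ↥L) : G) =
        ((r : ↥L) : G)⁻¹ * ((l : G)⁻¹ * y * (l : G)) * ((r : ↥L) : G) := by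
      show ((l : G) * ((r : ↥L) : G))⁻¹ * y * ((l : G) * ((r : ↥L) : G)) = _
      group
    rw [e]
    exact hΘconj _ (hRP hrR) _ (hEP (hLconj' l l.2 y hy))
  have hK1 : ∀ y ∈ E, ∀ q : ↥L ⧸ RL, σ q = q → F y q = Θ y := by
    intro y hy q hq
    obtain ⟨l, hl⟩ : ∃ l : ↥L, QuotientGroup.mk l = q := ⟨q.out, QuotientGroup.out_eq' q⟩
    rw [← hl] at hq ⊢
    rw [hWD l y hy]
    have h1 := hσpow 1 l
    rw [pow_one, pow_one, hq] at h1
    have h2 := QuotientGroup.eq.1 h1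
    rw [hRLdef, Subgroup.mem_subgroupOf] at h2
    have h3 : (l : G)⁻¹ * w * (l : G) ∈ R := by
      have e : ((l⁻¹ * (wL * l) : ↥L) : G) = (l : G)⁻¹ * w * (l : G) := by
        rw [hwLdef]; show (l : G)⁻¹ * (w * (l : G)) = _; group
      rwa [e] at h2
    obtain ⟨U, hUdef⟩ : ∃ U : Subgroup G, U = E ⊔ Subgroup.zpowers w := ⟨_, rfl⟩
    have hEU : E ≤ U := hUdef ▸ le_sup_left
    have hwU : w ∈ U := by
      rw [hUdef]; exact (le_sup_right : Subgroup.zpowers w ≤ _) (Subgroup.mem_zpowers w)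
    have hUP : U ≤ (P : Subgroup G) := by
      rw [hUdef]; exact sup_le hEP (by rw [Subgroup.zpowers_le]; exact hwP)
    have hcard : Nat.card E < Nat.card U := by
      by_contra hle
      have := Subgroup.eq_of_le_of_card_ge hEU (not_lt.1 hle)
      exact hwE (this ▸ hwU)
    have hUc : ∀ u ∈ U, (l : G)⁻¹ * u * (l : G)⁻¹⁻¹ ∈ (P : Subgroup G) := by
      have hle : U ≤ (P : Subgroup G).map (MulAut.conj (l : G)).toMonoidHom := by
        rw [hUdef]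
        refine sup_le ?_ ?_
        · intro e he; rw [mem_map_conj]; exact hEP (hLconj' l l.2 e he)
        · rw [Subgroup.zpowers_le, mem_map_conj]; exact hRP h3
      intro u hu
      have := hle hu
      rw [mem_map_conj] at this
      rwa [inv_inv]
    have := hIH U hUP hcard (l : G)⁻¹ hUc y (hEU hy)
    rwa [inv_inv] at this
  have hK2 : ∀ y ∈ E, ∀ q : ↥L ⧸ RL, σ q ≠ q →
      ∏ i ∈ Finset.range p, F y ((σ ^ i) q) = 1 := by
    intro y hy q _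
    obtain ⟨l, hl⟩ : ∃ l : ↥L, QuotientGroup.mk l = q := ⟨q.out, QuotientGroup.out_eq' q⟩
    rw [← hl]
    obtain ⟨f, hfdef⟩ : ∃ f : ↥E → ZMod p,
        f = fun e : ↥E => Multiplicative.toAdd (Θ ((l : G)⁻¹ * (e : G) * (l : G))) := ⟨_, rfl⟩
    have hf : ∀ y z : ↥E, f (y * z) = f y + f z := by
      intro a b
      rw [hfdef]
      show Multiplicative.toAdd (Θ ((l : G)⁻¹ * ((a : G) * b) * l)) = _
      have e : (l : G)⁻¹ * ((a : G) * b) * l = ((l : G)⁻¹ * a * l) * ((l : G)⁻¹ * b * l) := by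
        group
      rw [e, hmul _ (hEP (hLconj' l l.2 a a.2)) _ (hEP (hLconj' l l.2 b b.2))]
      rfl
    have hsum := engel_sum p E w hwE' hEng f hf ⟨y, hy⟩
    apply Multiplicative.toAdd.injective
    rw [toAdd_prod, toAdd_one, ← hsum]
    refine Finset.sum_congr rfl (fun i _ => ?_)
    rw [hσpow, hWD _ y hy, hfdef]
    show Multiplicative.toAdd (Θ (((wL ^ i * l : ↥L) : G)⁻¹ * y * ((wL ^ i * l : ↥L) : G))) =
      Multiplicative.toAdd (Θ ((l : G)⁻¹ *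
        (((fun y : ↥E => (⟨w⁻¹ * y * w, hwE' y y.2⟩ : ↥E))^[i] ⟨y, hy⟩ : ↥E) : G) * (l : G)))
    rw [iterate_conj_coe]
    congr 2
    rw [hwLdef]
    show ((w ^ i) * (l : G))⁻¹ * y * ((w ^ i) * (l : G)) = _
    group
  obtain ⟨m, hmdef⟩ : ∃ m : ℕ, m = (Finset.univ.filter (fun q : ↥L ⧸ RL => σ q = q)).card :=
    ⟨_, rfl⟩
  have hprod : ∀ y ∈ E, ∏ q, F y q = Θ y ^ m := by
    intro y hy
    rw [hmdef]
    exact perm_prod p σ hσp (F y) (Θ y) (hK1 y hy) (hK2 y hy)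
  have hm : ¬ p ∣ m := by
    have h1 := perm_fixed_card p σ hσp
    rw [← hmdef] at h1
    intro hdvd
    have h2 : p ∣ Fintype.card (↥L ⧸ RL) :=
      Nat.modEq_zero_iff_dvd.1 (h1.symm.trans (Nat.modEq_zero_iff_dvd.2 hdvd))
    obtain ⟨S, hS⟩ := hSyl
    have h3 := S.not_dvd_index
    apply h3
    rw [hS, Subgroup.index, Nat.card_eq_fintype_card]
    exact h2
  have hT1 : ∏ q, F (l₀ * y₀ * l₀⁻¹) q = ∏ q, F y₀ q := by
    obtain ⟨τ, hτ⟩ : ∃ τ : Equiv.Perm (↥L ⧸ RL),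
        τ = MulAction.toPermHom ↥L (↥L ⧸ RL) (⟨l₀, hl₀⟩ : ↥L)⁻¹ := ⟨_, rfl⟩
    rw [← Equiv.prod_comp τ (F y₀)]
    refine Finset.prod_congr rfl (fun q _ => ?_)
    obtain ⟨l, hl⟩ : ∃ l : ↥L, QuotientGroup.mk l = q := ⟨q.out, QuotientGroup.out_eq' q⟩
    rw [← hl, hWD l _ (hLconj l₀ hl₀ y₀ hy₀)]
    have e1 : τ (QuotientGroup.mk l) = QuotientGroup.mk ((⟨l₀, hl₀⟩ : ↥L)⁻¹ * l) := by
      rw [hτ]; rfl
    rw [e1, hWD _ y₀ hy₀]
    congr 1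
    show (l : G)⁻¹ * (l₀ * y₀ * l₀⁻¹) * (l : G) = (l₀⁻¹ * (l : G))⁻¹ * y₀ * (l₀⁻¹ * (l : G))
    group
  have hfinal : Θ (l₀ * y₀ * l₀⁻¹) ^ m = Θ y₀ ^ m := by
    rw [← hprod _ (hLconj l₀ hl₀ y₀ hy₀), ← hprod y₀ hy₀, hT1]
  exact pow_inj_of_coprime p (zmod_mul_pow p) hm hfinal

end Cfsg.Agent.Helper27.HW
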