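import Cfsg.Agent.Helper27.HWb

set_option autoImplicit false

namespace Cfsg.Agent.Helper27.HW

open Cfsg Cfsg.Agent.Helper26

/-- Hall–Wielandt, core form: a multiplicative function on the Sylow subgroup `P` with values in
`C_p` which is invariant under the normalizer of the weakly closed subgroup `W` (with the Engel
condition) is invariant under all of `G`. -/
theorem hw_core {G : Type*} [Group G] [Finite G] (p : ℕ) [hp : Fact p.Prime] (P : Sylow p G)
    (W : Subgroup G) (hW : Cfsg.IsWeaklyClosed W (P : Subgroup G))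
    (hE : ∀ u ∈ (P : Subgroup G), ∀ z ∈ W, (fun y : G => y⁻¹ * z⁻¹ * y * z)^[p - 1] u = 1)
    (Θ : G → Multiplicative (ZMod p))
    (hmul : ∀ x ∈ (P : Subgroup G), ∀ y ∈ (P : Subgroup G), Θ (x * y) = Θ x * Θ y)
    (hH : ∀ h ∈ Subgroup.normalizer (W : Set G), ∀ x ∈ (P : Subgroup G),
      h * x * h⁻¹ ∈ (P : Subgroup G) → Θ (h * x * h⁻¹) = Θ x) :
    ∀ (g x : G), x ∈ (P : Subgroup G) → g * x * g⁻¹ ∈ (P : Subgroup G) →
      Θ (g * x * g⁻¹) = Θ x := by
  classical
  have hWP : W ≤ (P : Subgroup G) := hW.1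
  have hWmap : ∀ g : G, (∀ z ∈ W, g * z * g⁻¹ ∈ (P : Subgroup G)) →
      ∀ z ∈ W, g * z * g⁻¹ ∈ W := by
    intro g hg z hz
    have h1 : W.map (MulAut.conj g).toMonoidHom ≤ (P : Subgroup G) := by
      rintro _ ⟨y, hy, rfl⟩; exact hg y hy
    have h2 := hW.2 g h1
    have h3 : g * z * g⁻¹ ∈ W.map (MulAut.conj g).toMonoidHom := ⟨z, hz, rfl⟩
    rwa [h2] at h3
  have hWn : ∀ r ∈ (P : Subgroup G), ∀ z ∈ W, r * z * r⁻¹ ∈ W := fun r hr =>
    hWmap r (fun z hz =>
      Subgroup.mul_mem _ (Subgroup.mul_mem _ hr (hWP hz)) (Subgroup.inv_mem _ hr))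
  have hWnorm : ∀ g : G, (∀ z ∈ W, g * z * g⁻¹ ∈ (P : Subgroup G)) →
      g ∈ Subgroup.normalizer (W : Set G) :=
    fun g hg => mem_normalizer_of_conj_mem_finite (hWmap g hg)
  have main : ∀ (n : ℕ) (Q : Subgroup G), Q ≤ (P : Subgroup G) →
      Nat.card (P : Subgroup G) - Nat.card Q = n →
      ∀ g : G, (∀ x ∈ Q, g * x * g⁻¹ ∈ (P : Subgroup G)) →
        ∀ x ∈ Q, Θ (g * x * g⁻¹) = Θ x := by
    intro n
    induction n using Nat.strong_induction_on with
    | _ n ih =>
      intro Q hQP hn g hg x hx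
      have hQle : Nat.card Q ≤ Nat.card (P : Subgroup G) := Subgroup.card_le_of_le hQP
      have hIH : ∀ U : Subgroup G, U ≤ (P : Subgroup G) → Nat.card Q < Nat.card U →
          ∀ g : G, (∀ x ∈ U, g * x * g⁻¹ ∈ (P : Subgroup G)) →
            ∀ x ∈ U, Θ (g * x * g⁻¹) = Θ x := by
        intro U hUP hcard
        have hUle : Nat.card U ≤ Nat.card (P : Subgroup G) := Subgroup.card_le_of_le hUP
        exact ih (Nat.card (P : Subgroup G) - Nat.card U) (by omega) U hUP rfl
      by_cases hQeq : Q = (P : Subgroup G)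
      · have hgN : g ∈ Subgroup.normalizer (W : Set G) :=
          hWnorm g (fun z hz => hg z (by rw [hQeq]; exact hWP hz))
        exact hH g hgN x (hQP hx) (hg x hx)
      haveI : Nonempty {a : G // ∀ x ∈ Q, a * x * a⁻¹ ∈ (P : Subgroup G)} :=
        ⟨⟨1, fun x hx => by simpa using hQP hx⟩⟩
      obtain ⟨⟨a, ha⟩, hamax⟩ := Finite.exists_max
        (fun a : {a : G // ∀ x ∈ Q, a * x * a⁻¹ ∈ (P : Subgroup G)} =>
          Nat.card ↥(Subgroup.normalizer
            ((Q.map (MulAut.conj a.1).toMonoidHom : Subgroup G) : Set G) ⊓ (P : Subgroup G)))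
      obtain ⟨E, hEdef⟩ : ∃ E : Subgroup G, E = Q.map (MulAut.conj a).toMonoidHom := ⟨_, rfl⟩
      obtain ⟨L, hLdef⟩ : ∃ L : Subgroup G, L = Subgroup.normalizer (E : Set G) := ⟨_, rfl⟩
      obtain ⟨R, hRdef⟩ : ∃ R : Subgroup G, R = L ⊓ (P : Subgroup G) := ⟨_, rfl⟩
      have hEP : E ≤ (P : Subgroup G) := by
        rw [hEdef]; rintro _ ⟨y, hy, rfl⟩; exact ha y hy
      have hEcard : Nat.card E = Nat.card Q := by rw [hEdef]; exact card_map_conj Q a
      have hRL : R ≤ L := hRdef ▸ inf_le_left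
      have hRP : R ≤ (P : Subgroup G) := hRdef ▸ inf_le_right
      have hER : E ≤ R := by
        rw [hRdef]; exact le_inf (by rw [hLdef]; exact Subgroup.le_normalizer) hEP
      have hRp : IsPGroup p R := P.isPGroup'.to_le hRP
      have hSyl : ∃ S : Sylow p ↥L, (S : Subgroup ↥L) = R.subgroupOf L := by
        apply sylowIn_of_card_le hRL hRp
        intro H' hH'p hRH' hH'L
        obtain ⟨c, hc⟩ := exists_conj_le_sylow P hH'p
        have ha' : ∀ x ∈ Q, (c * a) * x * (c * a)⁻¹ ∈ (P : Subgroup G) := by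
          intro x hx
          have h1 : a * x * a⁻¹ ∈ H' := hRH' (hER (by rw [hEdef]; exact ⟨x, hx, rfl⟩))
          have h2 : c * (a * x * a⁻¹) * c⁻¹ ∈ (P : Subgroup G) := hc ⟨_, h1, rfl⟩
          have e : (c * a) * x * (c * a)⁻¹ = c * (a * x * a⁻¹) * c⁻¹ := by group
          rw [e]; exact h2
        have h1 := hamax ⟨c * a, ha'⟩
        have hle : H'.map (MulAut.conj c).toMonoidHom ≤ Subgroup.normalizer
            ((Q.map (MulAut.conj (c * a)).toMonoidHom : Subgroup G) : Set G) ⊓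
              (P : Subgroup G) := by
          refine le_inf ?_ hc
          rw [← map_conj_mul Q c a, ← hEdef, ← map_conj_normalizer, ← hLdef]
          exact Subgroup.map_mono hH'L
        have h2 := Subgroup.card_le_of_le hle
        rw [card_map_conj] at h2
        have h3 : Nat.card ↥(Subgroup.normalizer
            ((Q.map (MulAut.conj a).toMonoidHom : Subgroup G) : Set G) ⊓ (P : Subgroup G)) =
            Nat.card R := by
          rw [hRdef, hLdef, hEdef]
        exact h2.trans (h1.trans h3.le)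
      have hLoc : ∀ l ∈ L, ∀ y ∈ E, Θ (l * y * l⁻¹) = Θ y := by
        by_cases hWE : W ≤ E
        · intro l hl y hy
          have hlE : ∀ z ∈ E, l * z * l⁻¹ ∈ E := by
            intro z hz; rw [hLdef] at hl; exact (Subgroup.mem_normalizer_iff.1 hl z).1 hz
          have hlN : l ∈ Subgroup.normalizer (W : Set G) :=
            hWnorm l (fun z hz => hEP (hlE z (hWE hz)))
          exact hH l hlN y (hEP hy) (hEP (hlE y hy))
        · exact hw_local p P W hWP hWn hE Θ hmul E hEP hWE L hLdef R hRdef hSyl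
            (fun U hUP hc => hIH U hUP (hEcard ▸ hc))
      have hQlt : ∀ d : G, (∀ x ∈ Q, d * x * d⁻¹ ∈ (P : Subgroup G)) →
          ∀ x ∈ Q, Θ (d * x * d⁻¹) = Θ (a * x * a⁻¹) := by
        intro d hd x hx
        obtain ⟨Qd, hQd⟩ : ∃ Qd : Subgroup G, Qd = Q.map (MulAut.conj d).toMonoidHom :=
          ⟨_, rfl⟩
        have hQdP : Qd ≤ (P : Subgroup G) := by
          rw [hQd]; rintro _ ⟨y, hy, rfl⟩; exact hd y hy
        have hQdcard : Nat.card Qd = Nat.card Q := by rw [hQd]; exact card_map_conj Q d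
        have hQdne : Qd ≠ (P : Subgroup G) := by
          intro h
          apply hQeq
          exact Subgroup.eq_of_le_of_card_ge hQP (by rw [← hQdcard, h])
        obtain ⟨U, hUdef⟩ : ∃ U : Subgroup G,
            U = Subgroup.normalizer (Qd : Set G) ⊓ (P : Subgroup G) := ⟨_, rfl⟩
        have hUP : U ≤ (P : Subgroup G) := hUdef ▸ inf_le_right
        have hQdU : Qd ≤ U := by rw [hUdef]; exact le_inf Subgroup.le_normalizer hQdP
        have hUcard : Nat.card Q < Nat.card U := by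
          obtain ⟨t, htP, htQ, htN⟩ := exists_normalizing_not_mem P.isPGroup' hQdP hQdne
          rw [← hQdcard]
          by_contra hle
          have := Subgroup.eq_of_le_of_card_ge hQdU (not_lt.1 hle)
          apply htQ
          rw [this, hUdef]
          exact ⟨htN, htP⟩
        obtain ⟨U', hU'def⟩ : ∃ U' : Subgroup G,
            U' = U.map (MulAut.conj (a * d⁻¹)).toMonoidHom := ⟨_, rfl⟩
        have hU'p : IsPGroup p U' := by
          rw [hU'def]; exact isPGroup_map_conj (P.isPGroup'.to_le hUP) _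
        have hU'L : U' ≤ L := by
          rw [hU'def, hLdef]
          have h1 : Qd.map (MulAut.conj (a * d⁻¹)).toMonoidHom = E := by
            rw [hQd, map_conj_mul, hEdef]
            have e : a * d⁻¹ * d = a := by group
            rw [e]
          rw [← h1, ← map_conj_normalizer]
          exact Subgroup.map_mono (hUdef ▸ inf_le_left)
        obtain ⟨n', hn'L, hn'⟩ := exists_conj_le_of_sylowIn hSyl hU'p hU'L
        have hbU : ∀ y ∈ U, (n' * (a * d⁻¹)) * y * (n' * (a * d⁻¹))⁻¹ ∈ (P : Subgroup G) := by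
          intro y hy
          have h1 : (a * d⁻¹) * y * (a * d⁻¹)⁻¹ ∈ U' := by rw [hU'def]; exact ⟨y, hy, rfl⟩
          have h2 : n' * ((a * d⁻¹) * y * (a * d⁻¹)⁻¹) * n'⁻¹ ∈ R := hn' ⟨_, h1, rfl⟩
          have e : (n' * (a * d⁻¹)) * y * (n' * (a * d⁻¹))⁻¹ =
              n' * ((a * d⁻¹) * y * (a * d⁻¹)⁻¹) * n'⁻¹ := by group
          rw [e]; exact hRP h2
        have hdx : d * x * d⁻¹ ∈ Qd := by rw [hQd]; exact ⟨x, hx, rfl⟩
        have h1 := hIH U hUP hUcard (n' * (a * d⁻¹)) hbU (d * x * d⁻¹) (hQdU hdx)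
        have e : (n' * (a * d⁻¹)) * (d * x * d⁻¹) * (n' * (a * d⁻¹))⁻¹ =
            n' * (a * x * a⁻¹) * n'⁻¹ := by group
        rw [e] at h1
        rw [← h1]
        exact hLoc n' hn'L (a * x * a⁻¹) (by rw [hEdef]; exact ⟨x, hx, rfl⟩)
      have h1 := hQlt g hg x hx
      have h2 := hQlt 1 (fun y hy => by simpa using hQP hy) x hx
      rw [one_mul, inv_one, mul_one] at h2
      rw [h1, ← h2]
  intro g x hx hgx
  have hQP : Subgroup.zpowers x ≤ (P : Subgroup G) := by
    rw [Subgroup.zpowers_le]; exact hx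
  refine main _ (Subgroup.zpowers x) hQP rfl g ?_ x (Subgroup.mem_zpowers x)
  intro y hy
  have hle : Subgroup.zpowers x ≤ (P : Subgroup G).map (MulAut.conj g⁻¹).toMonoidHom := by
    rw [Subgroup.zpowers_le, mem_map_conj, inv_inv]; exact hgx
  have := hle hy
  rw [mem_map_conj, inv_inv] at this
  exact this

end Cfsg.Agent.Helper27.HW
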