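import Cfsg.Agent.Helper27.HWc
import Cfsg.Agent.Helper27.TTk
import Cfsg.Agent.Helper27.NormalSub
import Cfsg.Agent.Helper26.GroupHyp
import Cfsg.Agent.Helper26.FusionHyp

set_option autoImplicit false

namespace Cfsg.Agent.Helper27.HW

open Cfsg Cfsg.FusionSystem Cfsg.Agent.Helper26

/-- The fusion system of a subgroup `H` containing the Sylow subgroup `S` is saturated. -/
theorem subgroupFusion_saturated_of_le {G : Type*} [Group G] [Finite G] (p : ℕ) [Fact p.Prime]
    (S : Sylow p G) (H : Subgroup G) (hSH : (S : Subgroup G) ≤ H) :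
    (fusionSystemOfSubgroup H (S : Subgroup G) hSH).IsSaturated p := by
  obtain ⟨R, hR⟩ := sylowIn_of_card_le hSH S.isPGroup' (fun H' hH'p hSH' _ => by
    rw [S.is_maximal' hH'p hSH'])
  refine model_saturated p _ (Subgroup.inclusion hSH)
    ⟨Subgroup.inclusion_injective hSH, ?_⟩ R ?_
  · intro P hP φ hφ
    constructor
    · rintro ⟨_, _, g, hg, h⟩
      exact ⟨⟨g, hg⟩, fun x => Subtype.ext (h x)⟩
    · rintro ⟨g, h⟩
      exact ⟨hP, hφ, g, g.2, fun x => congrArg Subtype.val (h x)⟩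
  · rw [hR, Helper27.range_inclusion_eq]

/-- The hyperfocal subgroup of `F_S(H)` lies in `O^p(H)`. -/
theorem subgroupHyp_le {G : Type*} [Group G] [Finite G] (p : ℕ) [Fact p.Prime]
    (S H : Subgroup G) (hSH : S ≤ H) :
    (fusionSystemOfSubgroup H S hSH).hyperfocalSubgroup p ≤ (pResidual p ↥H).map H.subtype := by
  have hKn : (pResidual p ↥H).Normal := pResidual_normal p ↥H
  have hKc : ∀ k ∈ (pResidual p ↥H).map H.subtype, ∀ h ∈ H,
      h * k * h⁻¹ ∈ (pResidual p ↥H).map H.subtype := by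
    rintro _ ⟨k, hk, rfl⟩ h hh
    exact ⟨⟨h, hh⟩ * k * ⟨h, hh⟩⁻¹, hKn.conj_mem k hk ⟨h, hh⟩, rfl⟩
  unfold hyperfocalSubgroup
  rw [Subgroup.closure_le]
  rintro _ ⟨P, α, x, hPS, hα, rfl⟩
  have key : Subgroup.closure {a : (fusionSystemOfSubgroup H S hSH).autGroup P |
        Nat.Coprime (orderOf a) p} ≤
      (quotStab ((pResidual p ↥H).map H.subtype) P).subgroupOf
        ((fusionSystemOfSubgroup H S hSH).autGroup P) := by
    rw [Subgroup.closure_le]
    intro β hβ
    have hβ' : Nat.Coprime (orderOf β) p := hβ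
    rw [SetLike.mem_coe, Subgroup.mem_subgroupOf]
    obtain ⟨-, -, g, hgH, hg⟩ := (mem_autGroup_iff (fusionSystemOfSubgroup H S hSH) hPS).1 β.2
    obtain ⟨k, n', hn', hcard⟩ := Nat.exists_eq_pow_mul_and_not_dvd
      (Nat.card_pos (α := G)).ne' p (Nat.Prime.ne_one Fact.out)
    have hgK : g ^ (p ^ k) ∈ (pResidual p ↥H).map H.subtype := by
      refine ⟨(⟨g, hgH⟩ : ↥H) ^ (p ^ k), ?_, rfl⟩
      apply Subgroup.subset_closure
      show Nat.Coprime (orderOf ((⟨g, hgH⟩ : ↥H) ^ (p ^ k))) p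
      have h1 : orderOf ((⟨g, hgH⟩ : ↥H) ^ (p ^ k)) ∣ n' := by
        apply orderOf_dvd_of_pow_eq_one
        rw [← pow_mul, ← hcard]
        apply Subtype.ext
        rw [Subgroup.coe_pow]
        exact pow_card_eq_one'
      exact Nat.Coprime.coprime_dvd_left h1
        ((Nat.Prime.coprime_iff_not_dvd Fact.out).2 hn').symm
    have hgmH : ∀ m : ℕ, g ^ m ∈ H := fun m => Subgroup.pow_mem _ hgH m
    have hpow : ∀ m : ℕ, ∀ x : P,
        ((((β : MulAut P) ^ m) x : P) : G) = g ^ m * (x : G) * (g ^ m)⁻¹ := by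
      intro m
      induction m with
      | zero => intro x; simp
      | succ m ih =>
        intro x
        rw [pow_succ', MulAut.mul_apply]
        have h1 := hg (((β : MulAut P) ^ m) x)
        have h2 : ((((β : MulAut P)) (((β : MulAut P) ^ m) x) : P) : G) =
            g * ((((β : MulAut P) ^ m) x : P) : G) * g⁻¹ := h1
        rw [h2, ih x, pow_succ']
        group
    have hβe : ((β : MulAut P) ^ (p ^ k)) ∈ quotStab ((pResidual p ↥H).map H.subtype) P := by
      intro x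
      rw [Subgroup.coe_mul, Subgroup.coe_inv, hpow]
      have e1 : (x : G)⁻¹ * (g ^ (p ^ k) * (x : G) * (g ^ (p ^ k))⁻¹) =
          ((x : G)⁻¹ * g ^ (p ^ k) * ((x : G)⁻¹)⁻¹) * (g ^ (p ^ k))⁻¹ := by group
      rw [e1]
      exact Subgroup.mul_mem _ (hKc _ hgK _ (Subgroup.inv_mem _ (hSH (hPS x.2))))
        (Subgroup.inv_mem _ hgK)
    have hco : Nat.Coprime (p ^ k) (orderOf β) := Nat.Coprime.pow_left k hβ'.symm
    obtain ⟨j, hj⟩ := exists_pow_eq_self_of_coprime hco
    have h5 : (((β ^ (p ^ k)) ^ j : (fusionSystemOfSubgroup H S hSH).autGroup P) : MulAut P) =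
        (β : MulAut P) := congrArg Subtype.val hj
    rw [Subgroup.coe_pow, Subgroup.coe_pow] at h5
    rw [← h5]
    exact Subgroup.pow_mem _ hβe j
  exact (Subgroup.mem_subgroupOf.1 (key hα)) x

end Cfsg.Agent.Helper27.HW
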