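import Cfsg.Agent.Helper27.HWd
import Cfsg.Prelude.Def_BaumannBlocks

set_option autoImplicit false

namespace Cfsg.Agent.Helper27.HW

open Cfsg Cfsg.FusionSystem Cfsg.Agent.Helper26

/-- `O^p(H)` (as a subgroup of `G`) lies in `O^p(G) ⊓ H`. -/
theorem pResidualOf_le {G : Type*} [Group G] (p : ℕ) (H : Subgroup G) :
    (pResidual p ↥H).map H.subtype ≤ pResidual p G ⊓ H := by
  rw [Subgroup.map_le_iff_le_comap]
  unfold Cfsg.pResidual
  rw [Subgroup.closure_le]
  intro g hg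
  have hg' : Nat.Coprime (orderOf g) p := hg
  rw [SetLike.mem_coe, Subgroup.mem_comap]
  refine ⟨Subgroup.subset_closure ?_, g.2⟩
  show Nat.Coprime (orderOf (g : G)) p
  rwa [Subgroup.orderOf_coe]

/-- **Hall–Wielandt theorem**: if `W` is weakly closed in the Sylow `p`-subgroup `P` and satisfies
the `(p-1)`-Engel condition with respect to `P`, then `N_G(W)` controls `p`-transfer:
`O^p(N_G(W)) = O^p(G) ∩ N_G(W)`. -/
theorem hall_wielandt {G : Type*} [Group G] [Finite G] (p : ℕ) [hp : Fact p.Prime] (P : Sylow p G)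
    (W : Subgroup G) (hW : Cfsg.IsWeaklyClosed W (P : Subgroup G))
    (hE : ∀ u ∈ (P : Subgroup G), ∀ z ∈ W, (fun y : G => y⁻¹ * z⁻¹ * y * z)^[p - 1] u = 1) :
    Cfsg.pResidualOf p (Subgroup.normalizer (W : Set G)) =
      Cfsg.pResidual p G ⊓ Subgroup.normalizer (W : Set G) := by
  classical
  obtain ⟨H, hHdef⟩ : ∃ H : Subgroup G, H = Subgroup.normalizer (W : Set G) := ⟨_, rfl⟩
  rw [← hHdef]
  have hPH : (P : Subgroup G) ≤ H := by
    intro x hx
    rw [hHdef]
    apply Helper27.mem_normalizer_of_conj_mem_finite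
    intro z hz
    have h1 : W.map (MulAut.conj x).toMonoidHom ≤ (P : Subgroup G) := by
      rintro _ ⟨y, hy, rfl⟩
      exact Subgroup.mul_mem _ (Subgroup.mul_mem _ hx (hW.1 hy)) (Subgroup.inv_mem _ hx)
    have h2 := hW.2 x h1
    have h3 : x * z * x⁻¹ ∈ W.map (MulAut.conj x).toMonoidHom := ⟨z, hz, rfl⟩
    rwa [h2] at h3
  have hF : (groupFusionSystem (P : Subgroup G)).IsSaturated p := groupFusion_saturated p P
  have hFH : (fusionSystemOfSubgroup H (P : Subgroup G) hPH).IsSaturated p :=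
    subgroupFusion_saturated_of_le p P H hPH
  have hsub : (fusionSystemOfSubgroup H (P : Subgroup G) hPH).IsSubsystemOf
      (groupFusionSystem (P : Subgroup G)) := by
    rintro Q φ ⟨hQ, hφ, g, -, hg⟩
    exact ⟨hQ, hφ, g, hg⟩
  have hyp : (groupFusionSystem (P : Subgroup G)).hyperfocalSubgroup p =
      (fusionSystemOfSubgroup H (P : Subgroup G) hPH).hyperfocalSubgroup p := by
    refine TT.relative_tate' p P.isPGroup' _ hF _ hFH hsub ?_
    intro l hl Q φ hφ x
    obtain ⟨Θ, hΘ⟩ : ∃ Θ : G → Multiplicative (ZMod p),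
        ∀ y (hy : y ∈ (P : Subgroup G)), Θ y = l ⟨y, hy⟩ :=
      ⟨fun y => if hy : y ∈ (P : Subgroup G) then l ⟨y, hy⟩ else 1, fun y hy => dif_pos hy⟩
    have hmul : ∀ x ∈ (P : Subgroup G), ∀ y ∈ (P : Subgroup G), Θ (x * y) = Θ x * Θ y := by
      intro a ha b hb
      rw [hΘ _ (Subgroup.mul_mem _ ha hb), hΘ _ ha, hΘ _ hb, ← map_mul]
      rfl
    have hinvH : ∀ h ∈ Subgroup.normalizer (W : Set G), ∀ x ∈ (P : Subgroup G),
        h * x * h⁻¹ ∈ (P : Subgroup G) → Θ (h * x * h⁻¹) = Θ x := by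
      intro h hh a ha hha
      rw [hΘ _ hha, hΘ _ ha]
      have hφ' : ((MulAut.conj h).toMonoidHom).comp (Subgroup.zpowers a).subtype ∈
          (fusionSystemOfSubgroup H (P : Subgroup G) hPH).Hom (Subgroup.zpowers a) := by
        refine ⟨?_, ?_, h, hHdef ▸ hh, fun y => rfl⟩
        · rw [Subgroup.zpowers_le]; exact ha
        · rintro ⟨y, hy⟩
          obtain ⟨k, rfl⟩ := Subgroup.mem_zpowers_iff.1 hy
          show h * a ^ k * h⁻¹ ∈ (P : Subgroup G)
          have e : h * a ^ k * h⁻¹ = (h * a * h⁻¹) ^ k := (conj_zpow).symm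
          rw [e]; exact Subgroup.zpow_mem _ hha k
      exact hl _ _ hφ' ⟨a, Subgroup.mem_zpowers a⟩
    have hcore := hw_core p P W hW hE Θ hmul hinvH
    have hφ' := hφ
    obtain ⟨hQP, hφP, g, hg⟩ := hφ'
    have hgx : g * (x : G) * g⁻¹ ∈ (P : Subgroup G) := by rw [← hg]; exact hφP x
    have h1 := hcore g (x : G) (hQP x.2) hgx
    rw [hΘ _ (hQP x.2), hΘ _ hgx] at h1
    rw [← h1]
    congr 1
    exact Subtype.ext (hg x)
  have hgh := groupHyp_eq p P
  have hle := subgroupHyp_le p (P : Subgroup G) H hPH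
  unfold Cfsg.pResidualOf
  apply le_antisymm (pResidualOf_le p H)
  rintro g ⟨hg1, hg2⟩
  obtain ⟨R, hR⟩ := sylowIn_of_card_le hPH P.isPGroup' (fun H' hH'p hSH' _ => by
    rw [P.is_maximal' hH'p hSH'])
  obtain ⟨b, hb, r, hr, hbr⟩ := exists_mul_sylow_pResidual R (⟨g, hg2⟩ : ↥H)
  have hrP : (r : G) ∈ (P : Subgroup G) := by
    have hr' : r ∈ (R : Subgroup ↥H) := hr
    rw [hR] at hr'
    exact Subgroup.mem_subgroupOf.1 hr'
  have hbG : (b : G) ∈ pResidual p G := (pResidualOf_le p H ⟨b, hb, rfl⟩).1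
  have e : g = (b : G) * (r : G) := congrArg Subtype.val hbr
  have hrG : (r : G) ∈ pResidual p G := by
    have e' : (r : G) = (b : G)⁻¹ * g := by rw [e]; group
    rw [e']; exact Subgroup.mul_mem _ (Subgroup.inv_mem _ hbG) hg1
  have hr2 : (r : G) ∈ (pResidual p ↥H).map H.subtype := by
    apply hle
    rw [← hyp, hgh]
    exact ⟨hrP, hrG⟩
  rw [e]
  exact Subgroup.mul_mem _ ⟨b, hb, rfl⟩ hr2

end Cfsg.Agent.Helper27.HW
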