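import Cfsg.Agent.Helper27.HWe

set_option autoImplicit false

namespace Cfsg.Agent.Helper27.HW

open Cfsg Cfsg.Agent.Helper26
open scoped commutatorElement

/-- Iterated commutators `[u, z, …, z]` (`k` entries `z`) lie in the `k`-th term of the lower
central series. -/
theorem iterate_comm_mem_lcs {G : Type*} [Group G] (P : Subgroup G) (k : ℕ) (u z : G)
    (hu : u ∈ P) (hz : z ∈ P) :
    (fun y : G => y⁻¹ * z⁻¹ * y * z)^[k] u ∈ P.lowerCentralSeries k := by
  induction k with
  | zero => exact hu
  | succ k ih =>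
    rw [Function.iterate_succ_apply', Subgroup.lowerCentralSeries_succ]
    have e : ∀ y : G, y⁻¹ * z⁻¹ * y * z = ⁅y⁻¹, z⁻¹⁆ := by
      intro y; rw [commutatorElement_def]; simp
    show _⁻¹ * z⁻¹ * _ * z ∈ _
    rw [e]
    exact Subgroup.commutator_mem_commutator (Subgroup.inv_mem _ ih) (Subgroup.inv_mem _ hz)

/-- A Sylow subgroup is weakly closed in itself. -/
theorem sylow_weaklyClosed_self {G : Type*} [Group G] [Finite G] {p : ℕ} [Fact p.Prime]
    (P : Sylow p G) : Cfsg.IsWeaklyClosed (P : Subgroup G) (P : Subgroup G) := by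
  refine ⟨le_refl _, fun g hg => ?_⟩
  exact Subgroup.eq_of_le_of_card_ge hg (by rw [card_map_conj])

/-- Hall–Wielandt for Sylow subgroups of class less than `p`: the Sylow normalizer controls
`p`-transfer. -/
theorem hall_wielandt_class {G : Type*} [Group G] [Finite G] (p : ℕ) [Fact p.Prime]
    (P : Sylow p G) (hcl : (P : Subgroup G).lowerCentralSeries (p - 1) = ⊥) :
    Cfsg.pResidualOf p (Subgroup.normalizer ((P : Subgroup G) : Set G)) =
      Cfsg.pResidual p G ⊓ Subgroup.normalizer ((P : Subgroup G) : Set G) :=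
  hall_wielandt p P (P : Subgroup G) (sylow_weaklyClosed_self P) (fun u hu z hz => by
    have h1 := iterate_comm_mem_lcs (P : Subgroup G) (p - 1) u z hu hz
    rw [hcl] at h1
    exact h1)

end Cfsg.Agent.Helper27.HW
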