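import Mathlib

set_option autoImplicit false

namespace Cfsg.Agent.Helper27

universe u v

theorem card_hom_le_aux {Z : Type v} [Group Z] (hZ : Nat.card Z = 2) :
    ∀ n : ℕ, ∀ (V : Type u) [Group V] [Finite V], Nat.card V = n → Nat.card (V →* Z) ≤ n := by
  have hZfin : Finite Z := Nat.finite_of_card_ne_zero (by rw [hZ]; norm_num)
  intro n
  induction n using Nat.strong_induction_on with
  | _ n ih =>
    intro V _ _ hn
    have hVpos : 0 < Nat.card V := Nat.card_pos
    by_cases hall : ∀ μ : V →* Z, μ = 1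
    · have hss : Subsingleton (V →* Z) := ⟨fun a b => (hall a).trans (hall b).symm⟩
      have hfinV : Finite (V →* Z) :=
        Finite.of_injective (fun f : V →* Z => (f : V → Z)) DFunLike.coe_injective
      have : Nat.card (V →* Z) ≤ 1 := Finite.card_le_one_iff_subsingleton.mpr hss
      omega
    · push Not at hall
      obtain ⟨l₀, hl₀⟩ := hall
      obtain ⟨v₀, hv₀⟩ : ∃ v₀, l₀ v₀ ≠ 1 := by
        by_contra h
        push Not at h
        exact hl₀ (MonoidHom.ext h)
      have hKne : l₀.ker ≠ ⊤ := by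
        intro h
        apply hv₀
        have : v₀ ∈ l₀.ker := by rw [h]; exact Subgroup.mem_top _
        exact this
      have hidx1 : l₀.ker.index ≠ 1 := fun h => hKne (Subgroup.index_eq_one.mp h)
      have hidx0 : l₀.ker.index ≠ 0 := Subgroup.index_ne_zero_of_finite
      have hmul : Nat.card l₀.ker * l₀.ker.index = Nat.card V := Subgroup.card_mul_index _
      have hKpos : 0 < Nat.card l₀.ker := Nat.card_pos
      have hK2 : Nat.card l₀.ker * 2 ≤ n := by
        rw [← hn, ← hmul]
        exact Nat.mul_le_mul_left _ (by omega)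
      have hK : Nat.card (l₀.ker →* Z) ≤ Nat.card l₀.ker :=
        ih (Nat.card l₀.ker) (by omega) l₀.ker rfl
      obtain ⟨w, -, hw⟩ := (Nat.card_eq_two_iff' (1 : Z)).mp hZ
      let Φ : (V →* Z) → (l₀.ker →* Z) × Z := fun μ => (μ.comp l₀.ker.subtype, μ v₀)
      have hΦ : Function.Injective Φ := by
        intro μ μ' h
        have h1 : μ.comp l₀.ker.subtype = μ'.comp l₀.ker.subtype := congrArg Prod.fst h
        have h2 : μ v₀ = μ' v₀ := congrArg Prod.snd h
        ext v
        by_cases hv : l₀ v = 1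
        · exact DFunLike.congr_fun h1 ⟨v, hv⟩
        · have hv' : l₀ v = l₀ v₀ := (hw _ hv).trans (hw _ hv₀).symm
          have hk : v₀⁻¹ * v ∈ l₀.ker := by
            rw [MonoidHom.mem_ker, map_mul, map_inv, hv', inv_mul_cancel]
          have h3 : μ (v₀⁻¹ * v) = μ' (v₀⁻¹ * v) := DFunLike.congr_fun h1 ⟨v₀⁻¹ * v, hk⟩
          have e1 : μ v = μ v₀ * μ (v₀⁻¹ * v) := by
            rw [← map_mul]; congr 1; group
          have e2 : μ' v = μ' v₀ * μ' (v₀⁻¹ * v) := by
            rw [← map_mul]; congr 1; group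
          rw [e1, e2, h2, h3]
      have hfinK : Finite (l₀.ker →* Z) :=
        Finite.of_injective (fun f : l₀.ker →* Z => (f : l₀.ker → Z)) DFunLike.coe_injective
      calc Nat.card (V →* Z) ≤ Nat.card ((l₀.ker →* Z) × Z) := Nat.card_le_card_of_injective Φ hΦ
        _ = Nat.card (l₀.ker →* Z) * 2 := by rw [Nat.card_prod, hZ]
        _ ≤ Nat.card l₀.ker * 2 := Nat.mul_le_mul_right 2 hK
        _ ≤ n := hK2

/-- a finite group has at most `|V|` homomorphisms into a commutative group of order 2. -/
theorem card_hom_le {V : Type u} [Group V] [Finite V] {Z : Type v} [Group Z]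
    (hZ : Nat.card Z = 2) : Nat.card (V →* Z) ≤ Nat.card V :=
  card_hom_le_aux hZ _ V rfl

end Cfsg.Agent.Helper27
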