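import Mathlib
import Cfsg.Prelude.Def_FischerSpaces
import Cfsg.Agent.Helper27.Fischer
import Cfsg.Agent.Helper27.S4Pres

namespace Cfsg.Agent.Helper27.TLines

open Cfsg Cfsg.LineSystem Cfsg.Agent.Helper27.Fischer

variable {G : Type*} [Group G]

theorem inv_of_sq {x : G} (h : x * x = 1) : x⁻¹ = x := inv_eq_of_mul_eq_one_right h

theorem sq_of_mem {D : Set G} (hD : IsThreeTranspositionSet D) {x : G} (hx : x ∈ D) :
    x * x = 1 := by
  have := pow_orderOf_eq_one x
  rw [hD.1 x hx, sq] at this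
  exact this

theorem cube_of_not_commute {D : Set G} (hD : IsThreeTranspositionSet D) {x y : G} (hx : x ∈ D)
    (hy : y ∈ D) (h : ¬ Commute x y) : (x * y) ^ 3 = 1 := by
  rcases hD.2 x hx y hy with h2 | h3
  · exfalso; apply h
    have hxi := inv_of_sq (sq_of_mem hD hx)
    have hyi := inv_of_sq (sq_of_mem hD hy)
    rw [sq] at h2
    have : x * y = (x * y)⁻¹ := (inv_eq_of_mul_eq_one_right h2).symm
    rw [mul_inv_rev, hxi, hyi] at this
    exact this
  · exact h3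

theorem braid_of {x y : G} (hx : x * x = 1) (hy : y * y = 1) (h3 : (x * y) ^ 3 = 1) :
    y * x * y = x * y * x := by
  have hxi : x⁻¹ = x := inv_of_sq hx
  have hyi : y⁻¹ = y := inv_of_sq hy
  have h : x * y * x * (y * x * y) = 1 := by rw [← h3, pow_three']; group
  have h' : y * x * y = (x * y * x)⁻¹ := (inv_eq_of_mul_eq_one_right h).symm
  rw [h', mul_inv_rev, mul_inv_rev, hxi, hyi, mul_assoc]

theorem s3_facts {X Y : G} (hX : X * X = 1) (hY : Y * Y = 1) (hbr : Y * X * Y = X * Y * X)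
    (hnc : ¬ Commute X Y) :
    X * Y * X⁻¹ = Y * X * Y⁻¹ ∧ (Y * X * Y⁻¹) * X * (Y * X * Y⁻¹)⁻¹ = Y ∧
    X * (Y * X * Y⁻¹) * X⁻¹ = Y ∧ (Y * X * Y⁻¹) * Y * (Y * X * Y⁻¹)⁻¹ = X ∧
    Y * (Y * X * Y⁻¹) * Y⁻¹ = X ∧ ¬ Commute X (Y * X * Y⁻¹) ∧ ¬ Commute Y (Y * X * Y⁻¹) ∧
    Y * X * Y⁻¹ ≠ X ∧ Y * X * Y⁻¹ ≠ Y ∧ X ≠ Y := by
  have hXi := inv_of_sq hX
  have hYi := inv_of_sq hY
  have e3 : X * Y * X⁻¹ = Y * X * Y⁻¹ := by rw [hXi, hYi, hbr]
  have e2 : Y * (Y * X * Y⁻¹) * Y⁻¹ = X := by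
    have : Y * (Y * X * Y⁻¹) * Y⁻¹ = (Y * Y) * X * (Y * Y)⁻¹ := by group
    rw [this, hY]; simp
  have e4 : X * (Y * X * Y⁻¹) * X⁻¹ = Y := by
    rw [← e3]
    have : X * (X * Y * X⁻¹) * X⁻¹ = (X * X) * Y * (X * X)⁻¹ := by group
    rw [this, hX]; simp
  have e5 : (Y * X * Y⁻¹) * X * (Y * X * Y⁻¹)⁻¹ = Y := by
    have : (Y * X * Y⁻¹) * X * (Y * X * Y⁻¹)⁻¹ = Y * (X * (Y⁻¹ * X * Y) * X⁻¹) * Y⁻¹ := by group
    rw [this]
    have h' : Y⁻¹ * X * Y = Y * X * Y⁻¹ := by rw [hYi]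
    rw [h', e4]; group
  have e6 : (Y * X * Y⁻¹) * Y * (Y * X * Y⁻¹)⁻¹ = X := by
    have : (Y * X * Y⁻¹) * Y * (Y * X * Y⁻¹)⁻¹ = Y * (X * Y * X⁻¹) * Y⁻¹ := by group
    rw [this, e3, e2]
  have hne : X ≠ Y := fun h => hnc (h ▸ Commute.refl X)
  refine ⟨e3, e5, e4, e6, e2, ?_, ?_, ?_, ?_, hne⟩
  · intro h
    apply hne
    have : (Y * X * Y⁻¹) * X * (Y * X * Y⁻¹)⁻¹ = X := by rw [← h.eq]; group
    rw [e5] at this; exact this.symm
  · intro h
    apply hne
    have : (Y * X * Y⁻¹) * Y * (Y * X * Y⁻¹)⁻¹ = Y := by rw [← h.eq]; group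
    rw [e6] at this; exact this
  · intro h
    apply hnc
    have : Y * X = X * Y := by
      calc Y * X = (Y * X * Y⁻¹) * Y := by group
        _ = X * Y := by rw [h]
    exact this.symm
  · intro h
    apply hne
    calc X = Y⁻¹ * (Y * X * Y⁻¹) * Y := by group
      _ = Y := by rw [h]; group

theorem line_of_two {D : Set G} (hD : IsThreeTranspositionSet D) {l : Set D}
    (hl : l ∈ threeTranspositionLines D) {p q : D} (hpq : p ≠ q) (hp : p ∈ l) (hq : q ∈ l) :
    ¬ Commute (p : G) (q : G) ∧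
      l = {z : D | (z : G) = p ∨ (z : G) = q ∨ (z : G) = (q : G) * (p : G) * (q : G)⁻¹} := by
  obtain ⟨x, y, hxy, rfl⟩ := hl
  have hX := sq_of_mem hD x.2
  have hY := sq_of_mem hD y.2
  have hbr := braid_of hX hY (cube_of_not_commute hD x.2 y.2 hxy)
  obtain ⟨e3, e5, e4, e6, e2, n1, n2, d1, d2, d3⟩ := s3_facts hX hY hbr hxy
  simp only [Set.mem_setOf_eq] at hp hq
  rcases hp with hp | hp | hp <;> rcases hq with hq | hq | hq
  · exact absurd (Subtype.ext (hp.trans hq.symm)) hpq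
  · rw [hp, hq]; exact ⟨hxy, rfl⟩
  · rw [hp, hq, e5]
    refine ⟨n1, ?_⟩
    ext z; simp only [Set.mem_setOf_eq]; tauto
  · rw [hp, hq, e3]
    refine ⟨fun h => hxy h.symm, ?_⟩
    ext z; simp only [Set.mem_setOf_eq]; tauto
  · exact absurd (Subtype.ext (hp.trans hq.symm)) hpq
  · rw [hp, hq, e6]
    refine ⟨n2, ?_⟩
    ext z; simp only [Set.mem_setOf_eq]; tauto
  · rw [hp, hq, e4]
    refine ⟨fun h => n1 h.symm, ?_⟩
    ext z; simp only [Set.mem_setOf_eq]; tauto
  · rw [hp, hq, e2]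
    refine ⟨fun h => n2 h.symm, ?_⟩
    ext z; simp only [Set.mem_setOf_eq]; tauto
  · exact absurd (Subtype.ext (hp.trans hq.symm)) hpq

theorem tl_partialLinear {D : Set G} (hD : IsThreeTranspositionSet D) :
    IsPartialLinear (threeTranspositionLines D) := by
  intro l hl m hm p q hpq hpl hql hpm hqm
  rw [(line_of_two hD hl hpq hpl hql).2, (line_of_two hD hm hpq hpm hqm).2]

theorem tl_ncard {D : Set G} (hD : IsThreeTranspositionSet D)
    (hconj : ∀ g : G, ∀ d ∈ D, g * d * g⁻¹ ∈ D)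
    {l : Set D} (hl : l ∈ threeTranspositionLines D) : l.ncard = 3 := by
  obtain ⟨x, y, hxy, rfl⟩ := hl
  have hX := sq_of_mem hD x.2
  have hY := sq_of_mem hD y.2
  have hbr := braid_of hX hY (cube_of_not_commute hD x.2 y.2 hxy)
  obtain ⟨e3, e5, e4, e6, e2, n1, n2, d1, d2, d3⟩ := s3_facts hX hY hbr hxy
  rw [Set.ncard_eq_three]
  refine ⟨x, y, ⟨(y : G) * x * (y : G)⁻¹, hconj _ _ x.2⟩, ?_, ?_, ?_, ?_⟩
  · intro h; exact d3 (congrArg Subtype.val h)
  · intro h; exact d1 (congrArg Subtype.val h).symm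
  · intro h; exact d2 (congrArg Subtype.val h).symm
  · ext z
    simp only [Set.mem_setOf_eq, Set.mem_insert_iff, Set.mem_singleton_iff, Subtype.ext_iff]

/-- abstract recognition of a plane -/
theorem plane_iso {D : Set G} (hD : IsThreeTranspositionSet D)
    {Y : Type*} (M : Set (Set Y)) (col : Y → Y → Prop) (f : Y → Y → Y)
    (h1 : ∀ x y z, T3 M x y z ↔ col x y ∧ z = f x y)
    (h3 : ∀ x y, ¬ col x y → f x y = y)
    (h4 : ∀ ℓ ∈ M, ∃ s t u, T3 M s t u ∧ ℓ = {s, t, u})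
    (h5 : ∀ s t, col s t → f s t ≠ t)
    (P : Y → G) (hP1 : ∀ s, P s ∈ D)
    (hP2 : ∀ s t, P s * P t * (P s)⁻¹ = P (f s t))
    (hP3 : Function.Injective P)
    (S : Set D) (hP4 : ∀ p ∈ S, ∃ s, P s = (p : G))
    (S₀ : Set Y) (hS₀ : ∀ s ∈ S₀, (⟨P s, hP1 s⟩ : D) ∈ S)
    (hgen : ∀ U : Set Y, S₀ ⊆ U → (∀ s t, s ∈ U → t ∈ U → col s t → f s t ∈ U) → ∀ s, s ∈ U) :
    Isomorphic (restrict (threeTranspositionLines D) (span (threeTranspositionLines D) S)) M := by
  have hcomm : ∀ s t, ¬ col s t → Commute (P s) (P t) := by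
    intro s t h
    have := hP2 s t
    rw [h3 s t h] at this
    show P s * P t = P t * P s
    calc P s * P t = P s * P t * (P s)⁻¹ * P s := by group
      _ = P t * P s := by rw [this]
  have hncomm : ∀ s t, col s t → ¬ Commute (P s) (P t) := by
    intro s t h hc
    have := hP2 s t
    have h' : P s * P t * (P s)⁻¹ = P t := by rw [hc.eq]; group
    rw [h'] at this
    exact h5 s t h (hP3 this).symm
  have hline : ∀ s t, col s t →
      ({⟨P s, hP1 s⟩, ⟨P t, hP1 t⟩, ⟨P (f s t), hP1 _⟩} : Set D) ∈ threeTranspositionLines D := by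
    intro s t h
    refine ⟨⟨P t, hP1 t⟩, ⟨P s, hP1 s⟩, fun hc => hncomm s t h hc.symm, ?_⟩
    ext z
    simp only [Set.mem_insert_iff, Set.mem_singleton_iff, Set.mem_setOf_eq, Subtype.ext_iff]
    rw [hP2]
    tauto
  have hspan : ∀ s, (⟨P s, hP1 s⟩ : D) ∈ span (threeTranspositionLines D) S := by
    intro s
    rw [span, Set.mem_sInter]
    rintro T ⟨hST, hT⟩
    refine hgen {s | (⟨P s, hP1 s⟩ : D) ∈ T} (fun s hs => hST (hS₀ s hs)) ?_ s
    intro s t hs ht hc
    have hl := hline s t hc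
    have hne : (⟨P s, hP1 s⟩ : D) ≠ ⟨P t, hP1 t⟩ := by
      intro h
      have h' : P s = P t := congrArg Subtype.val h
      apply hncomm s t hc
      rw [h']
    exact hT _ hl _ hs _ ht hne (by simp) (by simp) (by simp)
  have hspan' : ∀ p ∈ span (threeTranspositionLines D) S, ∃ s, P s = (p : G) := by
    intro p hp
    rw [span, Set.mem_sInter] at hp
    refine hp {p : D | ∃ s, P s = (p : G)} ⟨fun p hp => hP4 p hp, ?_⟩
    intro l hl x hx y hy hxy hxl hyl z hz
    obtain ⟨s, hs⟩ := hx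
    obtain ⟨t, ht⟩ := hy
    have := (line_of_two hD hl hxy hxl hyl).2
    rw [this] at hz
    rcases hz with hz | hz | hz
    · exact ⟨s, hs.trans hz.symm⟩
    · exact ⟨t, ht.trans hz.symm⟩
    · refine ⟨f t s, ?_⟩
      rw [hz, ← hs, ← ht, hP2]
  let g : Y → ↥(span (threeTranspositionLines D) S) := fun s => ⟨⟨P s, hP1 s⟩, hspan s⟩
  have hg : Function.Bijective g := by
    constructor
    · intro s t h
      apply hP3
      exact congrArg (fun z : ↥(span (threeTranspositionLines D) S) => ((z : D) : G)) h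
    · intro p
      obtain ⟨s, hs⟩ := hspan' p.1 p.2
      exact ⟨s, Subtype.ext (Subtype.ext hs)⟩
  have key : ∀ ℓ : Set Y,
      g '' ℓ ∈ restrict (threeTranspositionLines D) (span (threeTranspositionLines D) S) ↔
        ℓ ∈ M := by
    intro ℓ
    constructor
    · rintro ⟨l, hl, hlS, heq⟩
      obtain ⟨x, y, hxy, rfl⟩ := hl
      have hxl : x ∈ {z : D | (z : G) = x ∨ (z : G) = y ∨ (z : G) = (y : G) * x * (y : G)⁻¹} :=
        Or.inl rfl
      have hyl : y ∈ {z : D | (z : G) = x ∨ (z : G) = y ∨ (z : G) = (y : G) * x * (y : G)⁻¹} :=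
        Or.inr (Or.inl rfl)
      obtain ⟨s, hs⟩ := hspan' x (hlS hxl)
      obtain ⟨t, ht⟩ := hspan' y (hlS hyl)
      have hcol : col t s := by
        by_contra hc
        apply hxy
        rw [← hs, ← ht]
        exact (hcomm t s hc).symm
      have hM : ({t, s, f t s} : Set Y) ∈ M := ((h1 _ _ _).mpr ⟨hcol, rfl⟩).2.2.2
      have himg : g '' ℓ = g '' {t, s, f t s} := by
        rw [heq]
        ext z
        simp only [Set.mem_setOf_eq, Set.mem_image, Set.mem_insert_iff, Set.mem_singleton_iff]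
        constructor
        · rintro (hz | hz | hz)
          · exact ⟨s, by simp, Subtype.ext (Subtype.ext (hs.trans hz.symm))⟩
          · exact ⟨t, by simp, Subtype.ext (Subtype.ext (ht.trans hz.symm))⟩
          · refine ⟨f t s, by simp, Subtype.ext (Subtype.ext ?_)⟩
            show P (f t s) = _
            rw [hz, ← hs, ← ht, hP2]
        · rintro ⟨u, hu | hu | hu, rfl⟩
          · right; left; rw [hu]; exact ht
          · left; rw [hu]; exact hs
          · right; right; rw [hu]; show P (f t s) = _; rw [← hP2, hs, ht]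
      rw [hg.1.image_injective himg]
      exact hM
    · intro hℓ
      obtain ⟨s, t, u, hT, rfl⟩ := h4 ℓ hℓ
      obtain ⟨hcol, rfl⟩ := (h1 _ _ _).mp hT
      have : g '' {s, t, f s t} = {g s, g t, g (f s t)} := by
        simp [Set.image_insert_eq]
      rw [this]
      exact triple_mem_restrict.mpr (hline s t hcol)
  refine ⟨(Equiv.ofBijective g hg).symm, ?_⟩
  intro l
  have hl : g '' (⇑(Equiv.ofBijective g hg).symm '' l) = l := by
    rw [Set.image_image]
    have : (fun x => g ((Equiv.ofBijective g hg).symm x)) = id := by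
      funext x
      exact (Equiv.ofBijective g hg).apply_symm_apply x
    rw [this, Set.image_id]
  rw [← key, hl]

/-! ### the affine plane, model side -/

theorem z3i : ∀ a b : ZMod 3, -a - (a + b) = a + 2 * b := by decide
theorem z3j : ∀ a b : ZMod 3, a + -(b - a) = -a - b := by decide

theorem ag_h3 (x y : Fin 2 → ZMod 3) (h : ¬ x ≠ y) : -x - y = y := by
  have hxy : x = y := not_not.mp h
  subst hxy
  funext i
  simp only [Pi.neg_apply, Pi.sub_apply]
  exact z3g _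

theorem ag_h4 : ∀ ℓ ∈ affinePlaneThree, ∃ s t u : Fin 2 → ZMod 3,
    T3 affinePlaneThree s t u ∧ ℓ = {s, t, u} := by
  rintro ℓ ⟨v, w, hw, rfl⟩
  have hne : v ≠ v + w := by
    intro h
    apply hw
    have h' : v + w = v + 0 := by rw [add_zero]; exact h.symm
    exact add_left_cancel h'
  refine ⟨v, v + w, -v - (v + w), (ag_h1 _ _ _).mpr ⟨hne, rfl⟩, ?_⟩
  have h2 : -v - (v + w) = v + (2 : ZMod 3) • w := by
    funext i
    simp only [Pi.add_apply, Pi.smul_apply, Pi.neg_apply, Pi.sub_apply, smul_eq_mul]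
    exact z3i _ _
  ext p
  simp only [Set.mem_setOf_eq, Set.mem_insert_iff, Set.mem_singleton_iff]
  constructor
  · rintro ⟨c, hc⟩
    rcases z3h c with h | h | h
    · left; rw [hc, h]; simp
    · right; left; rw [hc, h]; simp
    · right; right; rw [hc, h, h2]
  · rintro (h | h | h)
    · exact ⟨0, by rw [h]; simp⟩
    · exact ⟨1, by rw [h]; simp⟩
    · exact ⟨2, by rw [h, h2]⟩

theorem ag_h5 (s t : Fin 2 → ZMod 3) (h : s ≠ t) : -s - t ≠ t := by
  intro h'
  apply h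
  funext i
  have := congrFun h' i
  simp only [Pi.neg_apply, Pi.sub_apply] at this
  exact z3d _ _ this

theorem ag_all : ∀ s : Fin 2 → ZMod 3, s = 0 ∨ s = ![1, 0] ∨ s = ![0, 1] ∨ s = ![2, 0] ∨
    s = ![0, 2] ∨ s = ![2, 2] ∨ s = ![1, 1] ∨ s = ![1, 2] ∨ s = ![2, 1] := by decide

theorem ag_gen (U : Set (Fin 2 → ZMod 3)) (h0 : (0 : Fin 2 → ZMod 3) ∈ U)
    (h1 : (![1, 0] : Fin 2 → ZMod 3) ∈ U) (h2 : (![0, 1] : Fin 2 → ZMod 3) ∈ U)
    (hcl : ∀ s t : Fin 2 → ZMod 3, s ∈ U → t ∈ U → s ≠ t → -s - t ∈ U) : ∀ s, s ∈ U := by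
  have n1 : (![2, 0] : Fin 2 → ZMod 3) ∈ U := by
    have := hcl 0 ![1, 0] h0 h1 (by decide)
    rwa [show -(0 : Fin 2 → ZMod 3) - ![1, 0] = ![2, 0] from by decide] at this
  have n2 : (![0, 2] : Fin 2 → ZMod 3) ∈ U := by
    have := hcl 0 ![0, 1] h0 h2 (by decide)
    rwa [show -(0 : Fin 2 → ZMod 3) - ![0, 1] = ![0, 2] from by decide] at this
  have n3 : (![2, 2] : Fin 2 → ZMod 3) ∈ U := by
    have := hcl ![1, 0] ![0, 1] h1 h2 (by decide)
    rwa [show -(![1, 0] : Fin 2 → ZMod 3) - ![0, 1] = ![2, 2] from by decide] at this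
  have n4 : (![1, 1] : Fin 2 → ZMod 3) ∈ U := by
    have := hcl ![2, 0] ![0, 2] n1 n2 (by decide)
    rwa [show -(![2, 0] : Fin 2 → ZMod 3) - ![0, 2] = ![1, 1] from by decide] at this
  have n5 : (![1, 2] : Fin 2 → ZMod 3) ∈ U := by
    have := hcl ![2, 0] ![0, 1] n1 h2 (by decide)
    rwa [show -(![2, 0] : Fin 2 → ZMod 3) - ![0, 1] = ![1, 2] from by decide] at this
  have n6 : (![2, 1] : Fin 2 → ZMod 3) ∈ U := by
    have := hcl ![1, 0] ![0, 2] h1 n2 (by decide)
    rwa [show -(![1, 0] : Fin 2 → ZMod 3) - ![0, 2] = ![2, 1] from by decide] at this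
  intro s
  rcases ag_all s with h | h | h | h | h | h | h | h | h <;> rw [h] <;> assumption

theorem ag_nonzero : ∀ w : Fin 2 → ZMod 3, w ≠ 0 → w = ![1, 0] ∨ w = ![2, 0] ∨ w = ![0, 1] ∨
    w = ![0, 2] ∨ w = ![1, 2] ∨ w = ![2, 1] ∨ w = ![1, 1] ∨ w = ![2, 2] := by decide

theorem ag_inj (P : (Fin 2 → ZMod 3) → G) (hP2 : ∀ s t, P s * P t * (P s)⁻¹ = P (-s - t))
    (h1 : P 0 ≠ P ![1, 0]) (h2 : P 0 ≠ P ![0, 1]) (h3 : P ![1, 0] ≠ P ![0, 1])
    (h4 : P ![0, 1] ≠ P ![2, 0]) : Function.Injective P := by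
  intro p q hpq
  by_contra hne
  have hw : p - q ≠ 0 := sub_ne_zero.mpr hne
  have hshift : ∀ s, P s = P (s + (p - q)) := by
    intro s
    have e1 := hP2 (-s - p) p
    have e2 := hP2 (-s - p) q
    rw [hpq] at e1
    rw [e1] at e2
    have a1 : -(-s - p) - p = s := by abel
    have a2 : -(-s - p) - q = s + (p - q) := by abel
    rw [a1, a2] at e2
    exact e2
  rcases ag_nonzero _ hw with h | h | h | h | h | h | h | h <;> rw [h] at hshift
  · have := hshift 0
    rw [show (0 : Fin 2 → ZMod 3) + ![1, 0] = ![1, 0] from by decide] at this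
    exact h1 this
  · have := hshift ![1, 0]
    rw [show (![1, 0] : Fin 2 → ZMod 3) + ![2, 0] = 0 from by decide] at this
    exact h1 this.symm
  · have := hshift 0
    rw [show (0 : Fin 2 → ZMod 3) + ![0, 1] = ![0, 1] from by decide] at this
    exact h2 this
  · have := hshift ![0, 1]
    rw [show (![0, 1] : Fin 2 → ZMod 3) + ![0, 2] = 0 from by decide] at this
    exact h2 this.symm
  · have := hshift ![0, 1]
    rw [show (![0, 1] : Fin 2 → ZMod 3) + ![1, 2] = ![1, 0] from by decide] at this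
    exact h3 this.symm
  · have := hshift ![1, 0]
    rw [show (![1, 0] : Fin 2 → ZMod 3) + ![2, 1] = ![0, 1] from by decide] at this
    exact h3 this
  · have := hshift ![2, 0]
    rw [show (![2, 0] : Fin 2 → ZMod 3) + ![1, 1] = ![0, 1] from by decide] at this
    exact h4 this.symm
  · have := hshift ![0, 1]
    rw [show (![0, 1] : Fin 2 → ZMod 3) + ![2, 2] = ![2, 0] from by decide] at this
    exact h4 this

/-! ### the dual affine plane, model side -/

theorem da_h1 (x y z : DualAffinePoint) :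
    T3 dualAffinePlaneTwo x y z ↔ dcol x y ∧ z = df x y := by
  unfold T3
  rw [dlin_iff]
  exact dh1 x y z

theorem da_h3 (x y : DualAffinePoint) (h : ¬ dcol x y) : df x y = y := by
  have h' : ¬ (x.1 ∩ y.1).card = 1 := h
  unfold df
  rw [dif_neg h']

def dlinI (i : Fin 4) (s t u : DualAffinePoint) : Prop :=
  ∀ r : DualAffinePoint, (r = s ∨ r = t ∨ r = u) ↔ i ∉ r.1

instance (i : Fin 4) (s t u : DualAffinePoint) : Decidable (dlinI i s t u) := by
  unfold dlinI; infer_instance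

set_option maxRecDepth 100000 in
theorem da_h4' : ∀ i : Fin 4, ∃ s t u : DualAffinePoint, u ≠ s ∧ u ≠ t ∧ s ≠ t ∧
    dlinI i s t u := by
  decide +kernel

theorem da_h4 : ∀ ℓ ∈ dualAffinePlaneTwo, ∃ s t u : DualAffinePoint,
    T3 dualAffinePlaneTwo s t u ∧ ℓ = {s, t, u} := by
  rintro ℓ ⟨i, rfl⟩
  obtain ⟨s, t, u, h1, h2, h3, h4⟩ := da_h4' i
  have heq : {r : DualAffinePoint | i ∉ r.1} = {s, t, u} := by
    ext r
    simp only [Set.mem_setOf_eq, Set.mem_insert_iff, Set.mem_singleton_iff]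
    exact (h4 r).symm
  refine ⟨s, t, u, ⟨h1, h2, h3, ?_⟩, heq⟩
  rw [← heq]
  exact ⟨i, rfl⟩

set_option maxRecDepth 100000 in
theorem da_h5 : ∀ s t : DualAffinePoint, dcol s t → df s t ≠ t := by
  decide +kernel

def p01 : DualAffinePoint := ⟨{0, 1}, by decide⟩
def p12 : DualAffinePoint := ⟨{1, 2}, by decide⟩
def p23 : DualAffinePoint := ⟨{2, 3}, by decide⟩
def p02 : DualAffinePoint := ⟨{0, 2}, by decide⟩
def p13 : DualAffinePoint := ⟨{1, 3}, by decide⟩
def p03 : DualAffinePoint := ⟨{0, 3}, by decide⟩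

set_option maxRecDepth 100000 in
theorem da_all : ∀ s : DualAffinePoint, s = p01 ∨ s = p12 ∨ s = p23 ∨ s = p02 ∨ s = p13 ∨
    s = p03 := by
  decide +kernel

set_option maxRecDepth 100000 in
theorem da_facts : dcol p01 p12 ∧ df p01 p12 = p02 ∧ dcol p23 p12 ∧ df p23 p12 = p13 ∧
    dcol p02 p23 ∧ df p02 p23 = p03 := by
  decide +kernel

theorem da_gen (U : Set DualAffinePoint) (h12 : p12 ∈ U) (h01 : p01 ∈ U) (h23 : p23 ∈ U)
    (hcl : ∀ s t : DualAffinePoint, s ∈ U → t ∈ U → dcol s t → df s t ∈ U) : ∀ s, s ∈ U := by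
  obtain ⟨c1, e1, c2, e2, c3, e3⟩ := da_facts
  have h02 : p02 ∈ U := by rw [← e1]; exact hcl _ _ h01 h12 c1
  have h13 : p13 ∈ U := by rw [← e2]; exact hcl _ _ h23 h12 c2
  have h03 : p03 ∈ U := by rw [← e3]; exact hcl _ _ h02 h23 c3
  intro s
  rcases da_all s with h | h | h | h | h | h <;> rw [h] <;> assumption

def sw (s : DualAffinePoint) : Equiv.Perm (Fin 4) :=
  if s.1 = {0, 1} then Equiv.swap 0 1 else if s.1 = {0, 2} then Equiv.swap 0 2
  else if s.1 = {0, 3} then Equiv.swap 0 3 else if s.1 = {1, 2} then Equiv.swap 1 2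
  else if s.1 = {1, 3} then Equiv.swap 1 3 else Equiv.swap 2 3

set_option maxRecDepth 100000 in
theorem sw_conj : ∀ s t : DualAffinePoint, sw s * sw t * (sw s)⁻¹ = sw (df s t) := by
  decide +kernel

set_option maxRecDepth 100000 in
theorem sw_inj : ∀ s t : DualAffinePoint, sw s = sw t → s = t := by
  decide +kernel

set_option maxRecDepth 100000 in
theorem sw_vals : sw p01 = Equiv.swap 0 1 ∧ sw p12 = Equiv.swap 1 2 ∧ sw p23 = Equiv.swap 2 3 := by
  decide +kernel

set_option maxRecDepth 100000 in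
theorem sw_isConj : ∀ s : DualAffinePoint, ∃ g : Equiv.Perm (Fin 4),
    sw s = g * Equiv.swap 0 1 * g⁻¹ := by
  decide +kernel

theorem s4_plane {D : Set G} (hD : IsThreeTranspositionSet D)
    (hconj : ∀ g : G, ∀ d ∈ D, g * d * g⁻¹ ∈ D)
    {a b d : G} (ha : a ∈ D) (hb : b ∈ D) (hd : d ∈ D) (hab : ¬ Commute a b)
    (had : ¬ Commute a d) (hbd : Commute b d) (hne : b ≠ d) :
    ∃ P : DualAffinePoint → G, (∀ s, P s ∈ D) ∧ (∀ s t, P s * P t * (P s)⁻¹ = P (df s t)) ∧
      Function.Injective P ∧ P p12 = a ∧ P p01 = b ∧ P p23 = d := by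
  have ha2 := sq_of_mem hD ha
  have hb2 := sq_of_mem hD hb
  have hd2 := sq_of_mem hD hd
  have hba3 : (b * a) ^ 3 = 1 := cube_of_not_commute hD hb ha (fun h => hab h.symm)
  have had3 : (a * d) ^ 3 = 1 := cube_of_not_commute hD ha hd had
  have br1 : a * b * a = b * a * b := braid_of hb2 ha2 hba3
  have br2 : d * a * d = a * d * a := braid_of ha2 hd2 had3
  obtain ⟨φ, h01, h12, h23⟩ := Cfsg.Agent.Helper27.exists_hom_S4 b a d hb2 ha2 hd2
    (by rw [← mul_assoc, ← mul_assoc]; exact br1) (by rw [← mul_assoc, ← mul_assoc]; exact br2)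
    hbd.eq.symm
  have hinj : Function.Injective φ := Cfsg.Agent.Helper27.s4_hom_injective φ (by rw [h01, h23]; exact hne)
  obtain ⟨v1, v2, v3⟩ := sw_vals
  refine ⟨fun s => φ (sw s), ?_, ?_, ?_, ?_, ?_, ?_⟩
  · intro s
    obtain ⟨g, hg⟩ := sw_isConj s
    show φ (sw s) ∈ D
    rw [hg, map_mul, map_mul, map_inv, h01]
    exact hconj _ _ hb
  · intro s t
    show φ (sw s) * φ (sw t) * (φ (sw s))⁻¹ = φ (sw (df s t))
    rw [← sw_conj, map_mul, map_mul, map_inv]
  · intro s t h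
    exact sw_inj s t (hinj h)
  · show φ (sw p12) = a
    rw [v2, h12]
  · show φ (sw p01) = b
    rw [v1, h01]
  · show φ (sw p23) = d
    rw [v3, h23]

/-! ### the affine case: the group computation -/

theorem b3_commute {U V : G} (hU : U ^ 3 = 1) (hV : V ^ 3 = 1) (hUV : (U * V) ^ 3 = 1)
    (hUV' : (U * V⁻¹) ^ 3 = 1) : Commute U (V⁻¹ * U * V) := by
  have h1 : V * U * V * U = U⁻¹ * V⁻¹ := by
    have h : U * (V * U * V * U) * V = 1 := by rw [← hUV, pow_three']; group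
    calc V * U * V * U = U⁻¹ * (U * (V * U * V * U) * V) * V⁻¹ := by group
      _ = U⁻¹ * V⁻¹ := by rw [h]; group
  have h2 : U * V⁻¹ * U * V⁻¹ = V * U⁻¹ := by
    have h : (U * V⁻¹ * U * V⁻¹) * (U * V⁻¹) = 1 := by rw [← hUV', pow_three']; group
    calc U * V⁻¹ * U * V⁻¹ = (U * V⁻¹ * U * V⁻¹) * (U * V⁻¹) * (V * U⁻¹) := by group
      _ = V * U⁻¹ := by rw [h]; group
  have hV3 : V * V * V = 1 := by rw [← hV, pow_three']
  have hVV : V * V = V⁻¹ := eq_inv_of_mul_eq_one_left hV3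
  have hVV' : V⁻¹ * V⁻¹ = V := by
    calc V⁻¹ * V⁻¹ = (V * V * V)⁻¹ * V := by group
      _ = V := by rw [hV3]; simp
  show U * (V⁻¹ * U * V) = V⁻¹ * U * V * U
  calc U * (V⁻¹ * U * V) = (U * V⁻¹ * U * V⁻¹) * (V * V) := by group
    _ = V * U⁻¹ * V⁻¹ := by rw [h2, hVV]
    _ = (V⁻¹ * V⁻¹) * (U⁻¹ * V⁻¹) := by rw [hVV']; group
    _ = (V⁻¹ * V⁻¹) * (V * U * V * U) := by rw [h1]
    _ = V⁻¹ * U * V * U := by group

def tau (x y : G) (v : Fin 2 → ZMod 3) : G := x ^ (v 0).val * y ^ (v 1).val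

def Pt (a x y : G) (v : Fin 2 → ZMod 3) : G := tau x y v * a * (tau x y v)⁻¹

theorem pow_val_add {x : G} (hx : x ^ 3 = 1) (i j : ZMod 3) :
    x ^ (i + j).val = x ^ i.val * x ^ j.val := by
  rw [ZMod.val_add, ← pow_add]
  exact (pow_eq_pow_mod _ hx).symm

theorem pow_val_neg {x : G} (hx : x ^ 3 = 1) (i : ZMod 3) :
    x ^ (-i).val = (x ^ i.val)⁻¹ := by
  have := pow_val_add hx (-i) i
  rw [neg_add_cancel, ZMod.val_zero, pow_zero] at this
  exact eq_inv_of_mul_eq_one_left this.symm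

theorem ag_core {a x y : G} (hx3 : x ^ 3 = 1) (hy3 : y ^ 3 = 1)
    (hxy : (x * y) ^ 3 = 1) (hxy' : (x * y⁻¹) ^ 3 = 1) (hax : a * x * a⁻¹ = x⁻¹)
    (hay : a * y * a⁻¹ = y⁻¹) :
    (∀ s t, Pt a x y s * Pt a x y t * (Pt a x y s)⁻¹ = Pt a x y (-s - t)) := by
  have c1 : Commute x (y⁻¹ * x * y) := b3_commute hx3 hy3 hxy hxy'
  have hyx : (y * x) ^ 3 = 1 := by
    have e : (y * x) ^ 3 = x⁻¹ * (x * y) ^ 3 * x := by rw [pow_three', pow_three']; group
    rw [e, hxy]; group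
  have hyx' : (y * x⁻¹) ^ 3 = 1 := by
    have e : y * x⁻¹ = (x * y⁻¹)⁻¹ := by group
    rw [e, inv_pow, hxy', inv_one]
  have c2 : Commute y (x⁻¹ * y * x) := b3_commute hy3 hx3 hyx hyx'
  obtain ⟨w, hw⟩ : ∃ w, w = y⁻¹ * x⁻¹ * y * x := ⟨_, rfl⟩
  have hwx : Commute w x := by
    have e : w = (y⁻¹ * x * y)⁻¹ * x := by rw [hw]; group
    rw [e]
    exact (c1.symm.inv_left).mul_left (Commute.refl x)
  have hwy : Commute w y := by
    have e : w = y⁻¹ * (x⁻¹ * y * x) := by rw [hw]; group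
    rw [e]
    exact (Commute.refl y).inv_left.mul_left c2.symm
  have hyxw : y * x = x * y * w := by rw [hw]; group
  have hwa : Commute w a := by
    have e0 : a * w * a⁻¹ = w := by
      have e1 : a * w * a⁻¹ =
          (a * y * a⁻¹)⁻¹ * (a * x * a⁻¹)⁻¹ * (a * y * a⁻¹) * (a * x * a⁻¹) := by
        rw [hw]; group
      rw [e1, hax, hay, inv_inv, inv_inv]
      have e2 : y * x * y⁻¹ * x⁻¹ = x * y * (w * y⁻¹) * x⁻¹ := by rw [hyxw]; group
      rw [e2, (hwy.inv_right).eq]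
      have e3 : x * y * (y⁻¹ * w) * x⁻¹ = x * (w * x⁻¹) := by group
      rw [e3, (hwx.inv_right).eq]; group
    show w * a = a * w
    calc w * a = (a * w * a⁻¹) * a := by rw [e0]
      _ = a * w := by group
  have Cy : ∀ m : ℕ, ∃ c, (Commute c x ∧ Commute c y ∧ Commute c a) ∧
      y * x ^ m = x ^ m * y * c := by
    intro m
    induction m with
    | zero => exact ⟨1, ⟨Commute.one_left _, Commute.one_left _, Commute.one_left _⟩, by simp⟩
    | succ m ih =>
      obtain ⟨c, ⟨hcx, hcy, hca⟩, hc⟩ := ih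
      refine ⟨w * c, ⟨hwx.mul_left hcx, hwy.mul_left hcy, hwa.mul_left hca⟩, ?_⟩
      calc y * x ^ (m + 1) = (y * x ^ m) * x := by rw [pow_succ, mul_assoc]
        _ = x ^ m * y * (c * x) := by rw [hc, mul_assoc]
        _ = x ^ m * y * (x * c) := by rw [hcx.eq]
        _ = x ^ m * (y * x) * c := by simp only [mul_assoc]
        _ = x ^ m * (x * y * w) * c := by rw [hyxw]
        _ = x ^ (m + 1) * y * (w * c) := by rw [pow_succ]; simp only [mul_assoc]
  have Cyy : ∀ n m : ℕ, ∃ c, (Commute c x ∧ Commute c y ∧ Commute c a) ∧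
      y ^ n * x ^ m = x ^ m * y ^ n * c := by
    intro n m
    induction n with
    | zero => exact ⟨1, ⟨Commute.one_left _, Commute.one_left _, Commute.one_left _⟩, by simp⟩
    | succ n ih =>
      obtain ⟨c, ⟨hcx, hcy, hca⟩, hc⟩ := ih
      obtain ⟨c', ⟨hcx', hcy', hca'⟩, hc'⟩ := Cy m
      refine ⟨c * c', ⟨hcx.mul_left hcx', hcy.mul_left hcy', hca.mul_left hca'⟩, ?_⟩
      calc y ^ (n + 1) * x ^ m = y ^ n * (y * x ^ m) := by rw [pow_succ, mul_assoc]
        _ = (y ^ n * x ^ m) * y * c' := by rw [hc']; simp only [mul_assoc]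
        _ = x ^ m * y ^ n * (c * y) * c' := by rw [hc]; simp only [mul_assoc]
        _ = x ^ m * y ^ n * (y * c) * c' := by rw [hcy.eq]
        _ = x ^ m * y ^ (n + 1) * (c * c') := by rw [pow_succ]; simp only [mul_assoc]
  have hττ : ∀ u v : Fin 2 → ZMod 3, ∃ c, Commute c a ∧ tau x y u * tau x y v = tau x y (u + v) * c := by
    intro u v
    obtain ⟨c, ⟨hcx, hcy, hca⟩, hc⟩ := Cyy (u 1).val (v 0).val
    refine ⟨c, hca, ?_⟩
    show x ^ (u 0).val * y ^ (u 1).val * (x ^ (v 0).val * y ^ (v 1).val) =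
      x ^ ((u + v) 0).val * y ^ ((u + v) 1).val * c
    rw [Pi.add_apply, Pi.add_apply, pow_val_add hx3, pow_val_add hy3]
    calc x ^ (u 0).val * y ^ (u 1).val * (x ^ (v 0).val * y ^ (v 1).val)
        = x ^ (u 0).val * (y ^ (u 1).val * x ^ (v 0).val) * y ^ (v 1).val := by
          simp only [mul_assoc]
      _ = x ^ (u 0).val * (x ^ (v 0).val * y ^ (u 1).val * c) * y ^ (v 1).val := by rw [hc]
      _ = x ^ (u 0).val * x ^ (v 0).val * y ^ (u 1).val * (c * y ^ (v 1).val) := by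
          simp only [mul_assoc]
      _ = x ^ (u 0).val * x ^ (v 0).val * y ^ (u 1).val * (y ^ (v 1).val * c) := by
          rw [(hcy.pow_right _).eq]
      _ = x ^ (u 0).val * x ^ (v 0).val * (y ^ (u 1).val * y ^ (v 1).val) * c := by
          simp only [mul_assoc]
  have hshift : ∀ u v : Fin 2 → ZMod 3,
      tau x y u * Pt a x y v * (tau x y u)⁻¹ = Pt a x y (u + v) := by
    intro u v
    obtain ⟨c, hca, hc⟩ := hττ u v
    show tau x y u * (tau x y v * a * (tau x y v)⁻¹) * (tau x y u)⁻¹ =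
      tau x y (u + v) * a * (tau x y (u + v))⁻¹
    calc tau x y u * (tau x y v * a * (tau x y v)⁻¹) * (tau x y u)⁻¹
        = (tau x y u * tau x y v) * a * (tau x y u * tau x y v)⁻¹ := by group
      _ = (tau x y (u + v) * c) * a * (tau x y (u + v) * c)⁻¹ := by rw [hc]
      _ = tau x y (u + v) * (c * a) * c⁻¹ * (tau x y (u + v))⁻¹ := by group
      _ = tau x y (u + v) * (a * c) * c⁻¹ * (tau x y (u + v))⁻¹ := by rw [hca.eq]
      _ = tau x y (u + v) * a * (tau x y (u + v))⁻¹ := by group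
  have hconjpow : ∀ (z : G), a * z * a⁻¹ = z⁻¹ → ∀ n : ℕ, a * z ^ n * a⁻¹ = (z ^ n)⁻¹ := by
    intro z hz n
    rw [← conj_pow, hz, inv_pow]
  have hτneg : ∀ v : Fin 2 → ZMod 3, a * tau x y v * a⁻¹ = tau x y (-v) := by
    intro v
    show a * (x ^ (v 0).val * y ^ (v 1).val) * a⁻¹ = x ^ ((-v) 0).val * y ^ ((-v) 1).val
    rw [Pi.neg_apply, Pi.neg_apply, pow_val_neg hx3, pow_val_neg hy3,
      ← hconjpow x hax, ← hconjpow y hay]
    group
  have hneg : ∀ v : Fin 2 → ZMod 3, a * Pt a x y v * a⁻¹ = Pt a x y (-v) := by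
    intro v
    show a * (tau x y v * a * (tau x y v)⁻¹) * a⁻¹ = tau x y (-v) * a * (tau x y (-v))⁻¹
    rw [← hτneg]
    group
  intro p q
  have e1 : tau x y p * Pt a x y (q - p) * (tau x y p)⁻¹ = Pt a x y q := by
    rw [hshift]; congr 1; abel
  have e2 : (tau x y p)⁻¹ * Pt a x y q * tau x y p = Pt a x y (q - p) := by
    rw [← e1]; group
  have e3 : Pt a x y p * Pt a x y q * (Pt a x y p)⁻¹ =
      tau x y p * (a * ((tau x y p)⁻¹ * Pt a x y q * tau x y p) * a⁻¹) * (tau x y p)⁻¹ := by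
    show tau x y p * a * (tau x y p)⁻¹ * Pt a x y q * (tau x y p * a * (tau x y p)⁻¹)⁻¹ = _
    group
  rw [e3, e2, hneg, hshift]
  congr 1
  funext i
  simp only [Pi.add_apply, Pi.neg_apply, Pi.sub_apply]
  exact z3j _ _

theorem ag_plane {a b d : G} (ha : a * a = 1) (hb : b * b = 1) (hd : d * d = 1)
    (hab : (a * b) ^ 3 = 1) (had : (a * d) ^ 3 = 1) (hbd : (b * d) ^ 3 = 1)
    (hcd : (a * b * a * d) ^ 3 = 1) :
    ∃ P : (Fin 2 → ZMod 3) → G, (∀ s, ∃ g, P s = g * a * g⁻¹) ∧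
      (∀ s t, P s * P t * (P s)⁻¹ = P (-s - t)) ∧ P 0 = a ∧ P ![1, 0] = b ∧ P ![0, 1] = d := by
  have hai := inv_of_sq ha
  have hbi := inv_of_sq hb
  have hdi := inv_of_sq hd
  have hxy : (a * b * (a * d)) ^ 3 = 1 := by
    rw [← mul_assoc]; exact hcd
  have hxy' : (a * b * (a * d)⁻¹) ^ 3 = 1 := by
    have e : a * b * (a * d)⁻¹ = a * (b * d⁻¹) * a⁻¹ := by group
    rw [e, hdi, conj_pow, hbd]; group
  have hax : a * (a * b) * a⁻¹ = (a * b)⁻¹ := by
    calc a * (a * b) * a⁻¹ = (a * a) * b * a⁻¹ := by group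
      _ = b⁻¹ * a⁻¹ := by rw [ha, one_mul, hbi]
      _ = (a * b)⁻¹ := by group
  have hay : a * (a * d) * a⁻¹ = (a * d)⁻¹ := by
    calc a * (a * d) * a⁻¹ = (a * a) * d * a⁻¹ := by group
      _ = d⁻¹ * a⁻¹ := by rw [ha, one_mul, hdi]
      _ = (a * d)⁻¹ := by group
  have key := ag_core (a := a) hab had hxy hxy' hax hay
  have v0 : (0 : ZMod 3).val = 0 := rfl
  have v1 : (1 : ZMod 3).val = 1 := rfl
  have conj_id : ∀ z : G, z * z = 1 → (a * z) ^ 3 = 1 → (a * z) * a * (a * z)⁻¹ = z := by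
    intro z hz h3
    have hzi := inv_of_sq hz
    have hbr : z * a * z = a * z * a := braid_of ha hz h3
    calc (a * z) * a * (a * z)⁻¹ = a * (z * a * z⁻¹) * a⁻¹ := by group
      _ = a * (a * z * a) * a := by rw [hzi, hai, hbr]
      _ = (a * a) * z * (a * a) := by group
      _ = z := by rw [ha]; simp
  refine ⟨Pt a (a * b) (a * d), fun s => ⟨_, rfl⟩, key, ?_, ?_, ?_⟩
  · show (a * b) ^ ((0 : Fin 2 → ZMod 3) 0).val * (a * d) ^ ((0 : Fin 2 → ZMod 3) 1).val * a *
      ((a * b) ^ ((0 : Fin 2 → ZMod 3) 0).val * (a * d) ^ ((0 : Fin 2 → ZMod 3) 1).val)⁻¹ = a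
    simp [v0]
  · show (a * b) ^ ((![1, 0] : Fin 2 → ZMod 3) 0).val * (a * d) ^ ((![1, 0] : Fin 2 → ZMod 3) 1).val * a *
      ((a * b) ^ ((![1, 0] : Fin 2 → ZMod 3) 0).val * (a * d) ^ ((![1, 0] : Fin 2 → ZMod 3) 1).val)⁻¹ = b
    have q0 : (![1, 0] : Fin 2 → ZMod 3) 0 = 1 := rfl
    have q1 : (![1, 0] : Fin 2 → ZMod 3) 1 = 0 := rfl
    rw [q0, q1, v0, v1, pow_one, pow_zero, mul_one]
    exact conj_id b hb hab
  · show (a * b) ^ ((![0, 1] : Fin 2 → ZMod 3) 0).val * (a * d) ^ ((![0, 1] : Fin 2 → ZMod 3) 1).val * a *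
      ((a * b) ^ ((![0, 1] : Fin 2 → ZMod 3) 0).val * (a * d) ^ ((![0, 1] : Fin 2 → ZMod 3) 1).val)⁻¹ = d
    have q0 : (![0, 1] : Fin 2 → ZMod 3) 0 = 0 := rfl
    have q1 : (![0, 1] : Fin 2 → ZMod 3) 1 = 1 := rfl
    rw [q0, q1, v0, v1, pow_one, pow_zero, one_mul]
    exact conj_id d hd had

theorem tl_planes {D : Set G} (hD : IsThreeTranspositionSet D)
    (hconj : ∀ g : G, ∀ d ∈ D, g * d * g⁻¹ ∈ D)
    (l : Set D) (hl : l ∈ threeTranspositionLines D) (m : Set D)
    (hm : m ∈ threeTranspositionLines D) (hlm : l ≠ m) (hmeet : (l ∩ m).Nonempty) :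
    Isomorphic (restrict (threeTranspositionLines D)
        (span (threeTranspositionLines D) (l ∪ m))) dualAffinePlaneTwo ∨
      Isomorphic (restrict (threeTranspositionLines D)
        (span (threeTranspositionLines D) (l ∪ m))) affinePlaneThree := by
  obtain ⟨a, hal, ham⟩ := hmeet
  have hm3 := tl_ncard hD hconj hm
  have hl3 := tl_ncard hD hconj hl
  obtain ⟨d, hdm, hda⟩ : ∃ d ∈ m, d ≠ a := by
    have : 1 < m.ncard := by rw [hm3]; norm_num
    exact Set.exists_ne_of_one_lt_ncard this a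
  obtain ⟨hnad, hmeq⟩ := line_of_two hD hm (Ne.symm hda) ham hdm
  by_cases hex : ∃ b ∈ l, b ≠ a ∧ Commute (b : G) (d : G)
  · left
    obtain ⟨b, hbl, hba, hbd⟩ := hex
    obtain ⟨hnab, hleq⟩ := line_of_two hD hl (Ne.symm hba) hal hbl
    have hbd_ne : (b : G) ≠ d := by
      intro h
      have h' : b = d := Subtype.ext h
      apply hlm
      rw [hleq, hmeq, h']
    obtain ⟨P, hP1, hP2, hP3, hPa, hPb, hPd⟩ :=
      s4_plane hD hconj a.2 b.2 d.2 hnab hnad hbd hbd_ne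
    refine plane_iso hD dualAffinePlaneTwo dcol df da_h1 da_h3 da_h4 da_h5 P hP1 hP2 hP3
      (l ∪ m) ?_ {p12, p01, p23} ?_ ?_
    · rintro p (hp | hp)
      · rw [hleq] at hp
        rcases hp with hp | hp | hp
        · exact ⟨p12, by rw [hPa, hp]⟩
        · exact ⟨p01, by rw [hPb, hp]⟩
        · refine ⟨df p01 p12, ?_⟩
          rw [← hP2, hPa, hPb, hp]
      · rw [hmeq] at hp
        rcases hp with hp | hp | hp
        · exact ⟨p12, by rw [hPa, hp]⟩
        · exact ⟨p23, by rw [hPd, hp]⟩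
        · refine ⟨df p23 p12, ?_⟩
          rw [← hP2, hPa, hPd, hp]
    · intro s hs
      simp only [Set.mem_insert_iff, Set.mem_singleton_iff] at hs
      rcases hs with rfl | rfl | rfl
      · left
        have : (⟨P p12, hP1 p12⟩ : D) = a := Subtype.ext hPa
        rw [this]; exact hal
      · left
        have : (⟨P p01, hP1 p01⟩ : D) = b := Subtype.ext hPb
        rw [this]; exact hbl
      · right
        have : (⟨P p23, hP1 p23⟩ : D) = d := Subtype.ext hPd
        rw [this]; exact hdm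
    · intro U hU hcl
      exact da_gen U (hU (by simp)) (hU (by simp)) (hU (by simp)) hcl
  · right
    push Not at hex
    obtain ⟨b, hbl, hba⟩ : ∃ b ∈ l, b ≠ a := by
      have : 1 < l.ncard := by rw [hl3]; norm_num
      exact Set.exists_ne_of_one_lt_ncard this a
    obtain ⟨hnab, hleq⟩ := line_of_two hD hl (Ne.symm hba) hal hbl
    have hnbd : ¬ Commute (b : G) (d : G) := hex b hbl hba
    have hc_mem : (b : G) * a * (b : G)⁻¹ ∈ D := hconj _ _ a.2
    have hcl : (⟨(b : G) * a * (b : G)⁻¹, hc_mem⟩ : D) ∈ l := by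
      rw [hleq]; right; right; rfl
    have hca : (⟨(b : G) * a * (b : G)⁻¹, hc_mem⟩ : D) ≠ a := by
      intro h
      have h' : (b : G) * a * (b : G)⁻¹ = a := congrArg Subtype.val h
      apply hnab
      have : (b : G) * a = a * b := by
        calc (b : G) * a = ((b : G) * a * (b : G)⁻¹) * b := by group
          _ = a * b := by rw [h']
      exact this.symm
    have hncd : ¬ Commute ((b : G) * a * (b : G)⁻¹) (d : G) := hex ⟨_, hc_mem⟩ hcl hca
    have ha2 := sq_of_mem hD a.2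
    have hb2 := sq_of_mem hD b.2
    have hd2 := sq_of_mem hD d.2
    have hab3 := cube_of_not_commute hD a.2 b.2 hnab
    have had3 := cube_of_not_commute hD a.2 d.2 hnad
    have hbd3 := cube_of_not_commute hD b.2 d.2 hnbd
    have hbr : (b : G) * a * b = a * b * a := braid_of ha2 hb2 hab3
    have hcd3 : ((a : G) * b * a * d) ^ 3 = 1 := by
      have := cube_of_not_commute hD hc_mem d.2 hncd
      rw [inv_of_sq hb2, hbr] at this
      exact this
    obtain ⟨P, hPc, hP2, hP0, hPb, hPd⟩ := ag_plane ha2 hb2 hd2 hab3 had3 hbd3 hcd3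
    have hP1 : ∀ s, P s ∈ D := by
      intro s
      obtain ⟨g, hg⟩ := hPc s
      rw [hg]; exact hconj g _ a.2
    have hP3 : Function.Injective P := by
      apply ag_inj P hP2
      · rw [hP0, hPb]; intro h; exact hba (Subtype.ext h.symm)
      · rw [hP0, hPd]; intro h; exact hda (Subtype.ext h.symm)
      · rw [hPb, hPd]; intro h
        apply hnbd
        rw [h]
      · have h20 : P ![2, 0] = (a : G) * b * (a : G)⁻¹ := by
          have := hP2 0 ![1, 0]
          rw [hP0, hPb] at this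
          rw [this, show -(0 : Fin 2 → ZMod 3) - ![1, 0] = ![2, 0] from by decide]
        rw [hPd, h20]
        intro h
        apply hncd
        have : (b : G) * a * (b : G)⁻¹ = d := by
          rw [h, inv_of_sq hb2, inv_of_sq ha2, hbr]
        rw [this]
    refine plane_iso hD affinePlaneThree (fun x y => x ≠ y) (fun x y => -x - y) ag_h1 ag_h3
      ag_h4 ag_h5 P hP1 hP2 hP3 (l ∪ m) ?_ {0, ![1, 0], ![0, 1]} ?_ ?_
    · rintro p (hp | hp)
      · rw [hleq] at hp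
        rcases hp with hp | hp | hp
        · exact ⟨0, by rw [hP0, hp]⟩
        · exact ⟨![1, 0], by rw [hPb, hp]⟩
        · refine ⟨-![1, 0] - 0, ?_⟩
          rw [← hP2, hP0, hPb, hp]
      · rw [hmeq] at hp
        rcases hp with hp | hp | hp
        · exact ⟨0, by rw [hP0, hp]⟩
        · exact ⟨![0, 1], by rw [hPd, hp]⟩
        · refine ⟨-![0, 1] - 0, ?_⟩
          rw [← hP2, hP0, hPd, hp]
    · intro s hs
      simp only [Set.mem_insert_iff, Set.mem_singleton_iff] at hs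
      rcases hs with rfl | rfl | rfl
      · left
        have : (⟨P 0, hP1 0⟩ : D) = a := Subtype.ext hP0
        rw [this]; exact hal
      · left
        have : (⟨P ![1, 0], hP1 ![1, 0]⟩ : D) = b := Subtype.ext hPb
        rw [this]; exact hbl
      · right
        have : (⟨P ![0, 1], hP1 ![0, 1]⟩ : D) = d := Subtype.ext hPd
        rw [this]; exact hdm
    · intro U hU hcl
      exact ag_gen U (hU (by simp)) (hU (by simp)) (hU (by simp)) hcl

theorem tl_fischer {D : Set G} (hD : IsThreeTranspositionGroup D) :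
    IsFischerSpace (threeTranspositionLines D) := by
  obtain ⟨h3, hconj, _⟩ := hD
  exact ⟨tl_partialLinear h3, fun l hl => tl_ncard h3 hconj hl,
    fun l hl m hm hlm hmeet => tl_planes h3 hconj l hl m hm hlm hmeet⟩

end Cfsg.Agent.Helper27.TLines
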