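import Mathlib
import Cfsg.Prelude.Def_FischerSpaces
import Cfsg.Agent.Helper27.TLines
import Cfsg.Agent.Helper27.S4Pres

namespace Cfsg.Agent.Helper27.PerpS4

open Cfsg Cfsg.Agent.Helper27.TLines

variable {G : Type*} [Group G]

abbrev t01 : Equiv.Perm (Fin 4) := Equiv.swap 0 1
abbrev t12 : Equiv.Perm (Fin 4) := Equiv.swap 1 2
abbrev t23 : Equiv.Perm (Fin 4) := Equiv.swap 2 3

theorem pf1 : t12 * ((t01 * t23) * t12 * (t01 * t23)⁻¹) = ((t01 * t23) * t12 * (t01 * t23)⁻¹) * t12 := by
  decide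
theorem pf2 : (t01 * t23) * t12 * (t01 * t23)⁻¹ ≠ t12 := by decide
theorem pf3 : t01 * (t12 * ((t01 * t23) * t12 * (t01 * t23)⁻¹)) * t01⁻¹ =
    (t01 * t23) * (t12 * ((t01 * t23) * t12 * (t01 * t23)⁻¹)) := by decide
theorem pf4 : (t01 * t23) * (t12 * ((t01 * t23) * t12 * (t01 * t23)⁻¹)) =
    (t12 * ((t01 * t23) * t12 * (t01 * t23)⁻¹)) * (t01 * t23) := by decide
theorem pf5 : (t01 * t23) * (t01 * t23) = 1 := by decide
theorem pf6 : (t01 * t23) * (t12 * ((t01 * t23) * t12 * (t01 * t23)⁻¹)) =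
    (t01 * t12 * t01⁻¹) * (t23 * t12 * t23⁻¹) := by decide
theorem pf7 : (t01 * t12 * t01⁻¹) * (t23 * t12 * t23⁻¹) =
    (t23 * t12 * t23⁻¹) * (t01 * t12 * t01⁻¹) := by decide
theorem pf8 : t23 * t12 * t23⁻¹ ≠ t01 * t12 * t01⁻¹ := by decide

theorem commute_conj {a b : G} (g : G) (h : Commute a b) :
    Commute (g * a * g⁻¹) (g * b * g⁻¹) := by
  show g * a * g⁻¹ * (g * b * g⁻¹) = g * b * g⁻¹ * (g * a * g⁻¹)
  calc g * a * g⁻¹ * (g * b * g⁻¹) = g * (a * b) * g⁻¹ := by group
    _ = g * (b * a) * g⁻¹ := by rw [h.eq]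
    _ = g * b * g⁻¹ * (g * a * g⁻¹) := by group

theorem s4_of_triple {D : Set G} (h3 : IsThreeTranspositionSet D) {e f e' : G} (he : e ∈ D)
    (hf : f ∈ D) (he' : e' ∈ D) (hne : e ≠ e') (hc : Commute e e') (h1 : ¬ Commute e f)
    (h2 : ¬ Commute f e') :
    ∃ φ : Equiv.Perm (Fin 4) →* G, Function.Injective φ ∧ φ (Equiv.swap 0 1) = e ∧
      φ (Equiv.swap 1 2) = f ∧ φ (Equiv.swap 2 3) = e' := by
  have he2 := sq_of_mem h3 he
  have hf2 := sq_of_mem h3 hf
  have he'2 := sq_of_mem h3 he'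
  have br1 : f * e * f = e * f * e := braid_of he2 hf2 (cube_of_not_commute h3 he hf h1)
  have br2 : e' * f * e' = f * e' * f := braid_of hf2 he'2 (cube_of_not_commute h3 hf he' h2)
  obtain ⟨φ, p1, p2, p3⟩ := Cfsg.Agent.Helper27.exists_hom_S4 e f e' he2 hf2 he'2
    (by rw [← mul_assoc, ← mul_assoc]; exact br1) (by rw [← mul_assoc, ← mul_assoc]; exact br2)
    hc.eq.symm
  exact ⟨φ, Cfsg.Agent.Helper27.s4_hom_injective φ (by rw [p1, p3]; exact hne), p1, p2, p3⟩

theorem triple_facts {D : Set G} (h3 : IsThreeTranspositionSet D)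
    (hconj : ∀ g : G, ∀ x ∈ D, g * x * g⁻¹ ∈ D) {e f e' : G} (he : e ∈ D)
    (hf : f ∈ D) (he' : e' ∈ D) (hne : e ≠ e') (hc : Commute e e') (h1 : ¬ Commute e f)
    (h2 : ¬ Commute f e') :
    ∃ fs : G, fs = (e * e') * f * (e * e')⁻¹ ∧ fs ∈ D ∧ fs ≠ f ∧ Commute f fs ∧
      e * (f * fs) * e⁻¹ = (e * e') * (f * fs) ∧ Commute (e * e') (f * fs) ∧
      (e * e') * (e * e') = 1 ∧ (e * e') * (f * fs) = (e * f * e⁻¹) * (e' * f * e'⁻¹) ∧
      Commute (e * f * e⁻¹) (e' * f * e'⁻¹) ∧ e' * f * e'⁻¹ ≠ e * f * e⁻¹ := by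
  obtain ⟨φ, hφ, p1, p2, p3⟩ := s4_of_triple h3 he hf he' hne hc h1 h2
  refine ⟨_, rfl, hconj _ _ hf, ?_, ?_, ?_, ?_, ?_, ?_, ?_, ?_⟩
  · intro h
    apply pf2
    apply hφ
    simp only [map_mul, map_inv, p1, p2, p3]
    exact h
  · have := congrArg φ pf1
    simp only [map_mul, map_inv, p1, p2, p3] at this
    exact this
  · have := congrArg φ pf3
    simp only [map_mul, map_inv, p1, p2, p3] at this
    exact this
  · have := congrArg φ pf4
    simp only [map_mul, map_inv, p1, p2, p3] at this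
    exact this
  · have := congrArg φ pf5
    simp only [map_mul, map_inv, map_one, p1, p2, p3] at this
    exact this
  · have := congrArg φ pf6
    simp only [map_mul, map_inv, p1, p2, p3] at this
    exact this
  · have := congrArg φ pf7
    simp only [map_mul, map_inv, p1, p2, p3] at this
    exact this
  · intro h
    apply pf8
    apply hφ
    simp only [map_mul, map_inv, p1, p2, p3]
    exact h

theorem partner_lemma {D : Set G} (hconj : ∀ g : G, ∀ x ∈ D, g * x * g⁻¹ ∈ D)
    (htrans : ∀ x ∈ D, ∀ y ∈ D, ∃ g : G, g * x * g⁻¹ = y)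
    {d v : G} (hd : d ∈ D) (hv : v ∈ D) (hdv : v ≠ d) (hcdv : Commute d v)
    (hDd : ∀ y ∈ D, Commute d y → y = d ∨ y = v) (hDv : ∀ y ∈ D, Commute v y → y = d ∨ y = v)
    {f : G} (hf : f ∈ D) :
    ∃ f' ∈ D, f' ≠ f ∧ Commute f f' ∧ (∀ y ∈ D, Commute f y → y = f ∨ y = f') ∧
      (∀ y ∈ D, Commute f' y → y = f ∨ y = f') := by
  obtain ⟨g, rfl⟩ := htrans d hd f hf
  have key : ∀ u : G, ∀ y : G, Commute (g * u * g⁻¹) y → Commute u (g⁻¹ * y * g) := by
    intro u y h
    have := commute_conj g⁻¹ h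
    rw [inv_inv] at this
    have e : g⁻¹ * (g * u * g⁻¹) * g = u := by group
    rw [e] at this
    exact this
  have hmem : ∀ y ∈ D, g⁻¹ * y * g ∈ D := by
    intro y hy
    have := hconj g⁻¹ y hy
    rw [inv_inv] at this
    exact this
  refine ⟨g * v * g⁻¹, hconj g v hv, ?_, commute_conj g hcdv, ?_, ?_⟩
  · intro h
    apply hdv
    calc v = g⁻¹ * (g * v * g⁻¹) * g := by group
      _ = g⁻¹ * (g * d * g⁻¹) * g := by rw [h]
      _ = d := by group
  · intro y hy hc
    rcases hDd _ (hmem y hy) (key d y hc) with h | h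
    · left; rw [← h]; group
    · right; rw [← h]; group
  · intro y hy hc
    rcases hDv _ (hmem y hy) (key v y hc) with h | h
    · left; rw [← h]; group
    · right; rw [← h]; group

theorem main {D : Set G} (h3 : IsThreeTranspositionSet D)
    (hconj : ∀ g : G, ∀ x ∈ D, g * x * g⁻¹ ∈ D)
    (htrans : ∀ x ∈ D, ∀ y ∈ D, ∃ g : G, g * x * g⁻¹ = y)
    (hgen : Subgroup.closure D = ⊤)
    {d v : G} (hd : d ∈ D) (hv : v ∈ D) (hdv : v ≠ d) (hcdv : Commute d v)
    (hDd : ∀ y ∈ D, Commute d y → y = d ∨ y = v) (hDv : ∀ y ∈ D, Commute v y → y = d ∨ y = v) :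
    Nonempty (G ≃* Equiv.Perm (Fin 4)) := by
  have PU : ∀ f ∈ D, ∀ g ∈ D, g ≠ f → Commute f g →
      (∀ y ∈ D, Commute f y → y = f ∨ y = g) ∧ (∀ y ∈ D, Commute g y → y = f ∨ y = g) := by
    intro f hf g hg hgf hc
    obtain ⟨f', hf', hne, hcf, h1, h2⟩ := partner_lemma hconj htrans hd hv hdv hcdv hDd hDv hf
    have : g = f' := by
      rcases h1 g hg hc with h | h
      · exact absurd h hgf
      · exact h
    rw [this]; exact ⟨h1, h2⟩
  obtain ⟨a, ha, had, hav⟩ : ∃ a ∈ D, a ≠ d ∧ a ≠ v := by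
    by_contra hcon
    push Not at hcon
    obtain ⟨g, hg⟩ := htrans d hd v hv
    have hle : Subgroup.closure D ≤ Subgroup.centralizer {d} := by
      rw [Subgroup.closure_le]
      intro x hx
      rw [SetLike.mem_coe, Subgroup.mem_centralizer_iff]
      intro y hy
      rw [Set.mem_singleton_iff] at hy
      subst hy
      by_cases hxd : x = y
      · rw [hxd]
      · rw [hcon x hx hxd]; exact hcdv.eq
    have hgc : g ∈ Subgroup.centralizer {d} := hle (by rw [hgen]; trivial)
    rw [Subgroup.mem_centralizer_iff] at hgc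
    have h' := hgc d rfl
    apply hdv
    rw [← hg, ← h']; group
  have hnda : ¬ Commute d a := by
    intro h
    rcases hDd a ha h with h | h
    · exact had h
    · exact hav h
  have hnav : ¬ Commute a v := by
    intro h
    rcases hDv a ha h.symm with h | h
    · exact had h
    · exact hav h
  obtain ⟨φ, hφi, q1, q2, q3⟩ := s4_of_triple h3 hd ha hv (Ne.symm hdv) hcdv hnda hnav
  obtain ⟨as, has_def, has, hasne, hcas, ea4, ea5, ea6, -, -, -⟩ :=
    triple_facts h3 hconj hd ha hv (Ne.symm hdv) hcdv hnda hnav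
  obtain ⟨hDa, hDas⟩ := PU a ha as has hasne hcas
  have hrange : ∀ b ∈ D, b ∈ φ.range := by
    intro b hb
    by_cases hbd : b = d
    · exact ⟨_, by rw [q1, hbd]⟩
    by_cases hbv : b = v
    · exact ⟨_, by rw [q3, hbv]⟩
    by_cases hba : b = a
    · exact ⟨_, by rw [q2, hba]⟩
    by_cases hbas : b = as
    · refine ⟨(t01 * t23) * t12 * (t01 * t23)⁻¹, ?_⟩
      simp only [map_mul, map_inv, q1, q2, q3]
      rw [hbas, has_def]
    have hndb : ¬ Commute d b := by
      intro h
      rcases hDd b hb h with h | h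
      · exact hbd h
      · exact hbv h
    have hnbv : ¬ Commute b v := by
      intro h
      rcases hDv b hb h.symm with h | h
      · exact hbd h
      · exact hbv h
    obtain ⟨bs, hbs_def, hbs, hbsne, hcbs, eb4, -, -, -, -, -⟩ :=
      triple_facts h3 hconj hd hb hv (Ne.symm hdv) hcdv hndb hnbv
    have hnab : ¬ Commute a b := by
      intro h
      rcases hDa b hb h with h | h
      · exact hba h
      · exact hbas h
    have hnbas : ¬ Commute b as := by
      intro h
      rcases hDas b hb h.symm with h | h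
      · exact hba h
      · exact hbas h
    obtain ⟨bs', hbs'_def, hbs', hbs'ne, hcbs', -, -, -, ec7, ec8, ec9⟩ :=
      triple_facts h3 hconj ha hb has (Ne.symm hasne) hcas hnab hnbas
    obtain ⟨hDb, -⟩ := PU b hb bs hbs hbsne hcbs
    have hbeq : bs' = bs := by
      rcases hDb bs' hbs' hcbs' with h | h
      · exact absurd h hbs'ne
      · exact h
    rw [hbeq] at ec7
    -- c and its partner
    obtain ⟨c, hc_def⟩ : ∃ c, c = a * b * a⁻¹ := ⟨_, rfl⟩
    obtain ⟨cd, hcd_def⟩ : ∃ cd, cd = as * b * as⁻¹ := ⟨_, rfl⟩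
    rw [← hc_def, ← hcd_def] at ec7 ec8 ec9
    have hc_mem : c ∈ D := by rw [hc_def]; exact hconj a b hb
    have hcd_mem : cd ∈ D := by rw [hcd_def]; exact hconj as b hb
    obtain ⟨hDc, hDcd⟩ := PU c hc_mem cd hcd_mem ec9 ec8
    have hδ : d * (c * cd) * d⁻¹ = c * cd := by
      rw [← ec7]
      calc d * (a * as * (b * bs)) * d⁻¹ = (d * (a * as) * d⁻¹) * (d * (b * bs) * d⁻¹) := by group
        _ = (d * v * (a * as)) * (d * v * (b * bs)) := by rw [ea4, eb4]
        _ = (a * as * (d * v)) * (d * v * (b * bs)) := by rw [ea5.eq]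
        _ = a * as * ((d * v) * (d * v)) * (b * bs) := by simp only [mul_assoc]
        _ = a * as * (b * bs) := by rw [ea6, mul_one]
    have hc1mem : d * c * d⁻¹ ∈ D := hconj d c hc_mem
    have hc12 : (d * c * d⁻¹) * (d * cd * d⁻¹) = c * cd := by
      calc (d * c * d⁻¹) * (d * cd * d⁻¹) = d * (c * cd) * d⁻¹ := by group
        _ = c * cd := hδ
    have hcomm1 : Commute (c * cd) (d * c * d⁻¹) := by
      rw [← hc12]
      exact (Commute.refl _).mul_left (commute_conj d ec8).symm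
    have hc1 : d * c * d⁻¹ = c ∨ d * c * d⁻¹ = cd := by
      by_contra hcon
      push Not at hcon
      have n1 : ¬ Commute c (d * c * d⁻¹) := by
        intro h
        rcases hDc _ hc1mem h with h | h
        · exact hcon.1 h
        · exact hcon.2 h
      have n2 : ¬ Commute (d * c * d⁻¹) cd := by
        intro h
        rcases hDcd _ hc1mem h.symm with h | h
        · exact hcon.1 h
        · exact hcon.2 h
      obtain ⟨fs, hfs, -, T2, -, -, -, -, -, -, -⟩ :=
        triple_facts h3 hconj hc_mem hc1mem hcd_mem (Ne.symm ec9) ec8 n1 n2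
      apply T2
      rw [hfs, hcomm1.eq]; group
    rcases hc1 with h | h
    · have hcomm : Commute d c := by
        show d * c = c * d
        calc d * c = (d * c * d⁻¹) * d := by group
          _ = c * d := by rw [h]
      rcases hDd c hc_mem hcomm with h' | h'
      · refine ⟨t12⁻¹ * t01 * t12, ?_⟩
        simp only [map_mul, map_inv, q1, q2, q3]
        rw [← h', hc_def]; group
      · refine ⟨t12⁻¹ * t23 * t12, ?_⟩
        simp only [map_mul, map_inv, q1, q2, q3]
        rw [← h', hc_def]; group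
    · exfalso
      by_cases hcomm : Commute c d
      · apply ec9
        rw [← h]
        calc d * c * d⁻¹ = (c * d) * d⁻¹ := by rw [hcomm.eq]
          _ = c := by group
      · have hc2 := sq_of_mem h3 hc_mem
        have hd2 := sq_of_mem h3 hd
        have hbr := braid_of hc2 hd2 (cube_of_not_commute h3 hc_mem hd hcomm)
        obtain ⟨-, -, -, -, -, n1, -, -, -, -⟩ := s3_facts hc2 hd2 hbr hcomm
        apply n1
        rw [h]; exact ec8
  have hsurj : Function.Surjective φ := by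
    have htop : φ.range = ⊤ := by
      apply top_unique
      rw [← hgen, Subgroup.closure_le]
      exact hrange
    intro g
    have : g ∈ φ.range := by rw [htop]; trivial
    exact this
  exact ⟨(MulEquiv.ofBijective φ ⟨hφi, hsurj⟩).symm⟩

end Cfsg.Agent.Helper27.PerpS4
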