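import Cfsg.Agent.Helper27.PerpS4
import Cfsg.Agent.Helper21.BaerSuzuki
import Cfsg.Agent.Helper27.Basic

set_option autoImplicit false

namespace Cfsg.Agent.Helper27

open Cfsg Cfsg.Agent.Helper27.PerpS4 Cfsg.Agent.Helper27.TLines

variable {G : Type*} [Group G]

/-- `v` commutes with exactly the same members of `D` as `d`. -/
def SameComm (D : Set G) (d v : G) : Prop := ∀ e ∈ D, Commute v e ↔ Commute d e

theorem commute_conj_iff (g a b : G) : Commute (g * a * g⁻¹) b ↔ Commute a (g⁻¹ * b * g) := by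
  constructor
  · intro h
    have h' : g * a * g⁻¹ * b = b * (g * a * g⁻¹) := h
    show a * (g⁻¹ * b * g) = g⁻¹ * b * g * a
    calc a * (g⁻¹ * b * g) = g⁻¹ * (g * a * g⁻¹ * b) * g := by group
      _ = g⁻¹ * (b * (g * a * g⁻¹)) * g := by rw [h']
      _ = g⁻¹ * b * g * a := by group
  · intro h
    have h' : a * (g⁻¹ * b * g) = g⁻¹ * b * g * a := h
    show g * a * g⁻¹ * b = b * (g * a * g⁻¹)
    calc g * a * g⁻¹ * b = g * (a * (g⁻¹ * b * g)) * g⁻¹ := by group
      _ = g * (g⁻¹ * b * g * a) * g⁻¹ := by rw [h']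
      _ = b * (g * a * g⁻¹) := by group

theorem sameComm_conj {D : Set G} (hconj : ∀ g : G, ∀ d ∈ D, g * d * g⁻¹ ∈ D) {d v : G}
    (h : SameComm D d v) (g : G) : SameComm D (g * d * g⁻¹) (g * v * g⁻¹) := by
  intro e he
  have he' : g⁻¹ * e * g ∈ D := by
    have := hconj g⁻¹ e he
    rwa [inv_inv] at this
  rw [commute_conj_iff, commute_conj_iff]
  exact h _ he'

theorem commute_of_sq {a b : G} (ha : a * a = 1) (hb : b * b = 1) (h : (a * b) ^ 2 = 1) :
    Commute a b := by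
  have hai := inv_eq_of_mul_eq_one_right ha
  have hbi := inv_eq_of_mul_eq_one_right hb
  have h1 : a * b * (a * b) = 1 := by rw [← pow_two]; exact h
  have h2 : a * b = (a * b)⁻¹ := (inv_eq_of_mul_eq_one_right h1).symm
  rw [mul_inv_rev, hai, hbi] at h2
  exact h2

theorem sq_of_commute {a b : G} (ha : a * a = 1) (hb : b * b = 1) (h : Commute a b) :
    (a * b) * (a * b) = 1 := by
  calc a * b * (a * b) = a * (b * a) * b := by group
    _ = a * (a * b) * b := by rw [h.eq]
    _ = (a * a) * (b * b) := by group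
    _ = 1 := by rw [ha, hb, one_mul]

theorem sameComm_prod_pow_four {D : Set G} (h3 : IsThreeTranspositionSet D)
    (hconj : ∀ g : G, ∀ d ∈ D, g * d * g⁻¹ ∈ D) {d v d' v' : G} (hd : d ∈ D) (hv : v ∈ D)
    (hd' : d' ∈ D) (hv' : v' ∈ D) (hdv : v ≠ d) (h : SameComm D d v) (h' : SameComm D d' v') :
    ((d * v) * (d' * v')) ^ 4 = 1 := by
  have hcdv : Commute d v := ((h d hd).2 (Commute.refl d)).symm
  have hcd'v' : Commute d' v' := ((h' d' hd').2 (Commute.refl d')).symm
  have hdd := sq_of_mem h3 hd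
  have hvv := sq_of_mem h3 hv
  have hd'd' := sq_of_mem h3 hd'
  have hv'v' := sq_of_mem h3 hv'
  have hxx : (d * v) * (d * v) = 1 := sq_of_commute hdd hvv hcdv
  have hyy : (d' * v') * (d' * v') = 1 := sq_of_commute hd'd' hv'v' hcd'v'
  by_cases hc : Commute d d'
  · have c1 : Commute v d' := (h d' hd').2 hc
    have c2 : Commute v' d := (h' d hd).2 hc.symm
    have c3 : Commute v v' := (h v' hv').2 c2.symm
    have hxy : Commute (d * v) (d' * v') := (hc.mul_right c2.symm).mul_left (c1.mul_right c3)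
    rw [hxy.mul_pow, show (4 : ℕ) = 2 * 2 from rfl, pow_mul, pow_mul, pow_two (d * v),
      pow_two (d' * v'), hxx, hyy, one_pow, one_mul]
  · have nc1 : ¬ Commute v d' := fun c => hc ((h d' hd').1 c)
    obtain ⟨φ, -, h01, h12, h23⟩ := s4_of_triple h3 hd hd' hv (Ne.symm hdv) hcdv hc
      (fun c => nc1 c.symm)
    have hxinv : (d * v)⁻¹ = d * v := inv_eq_of_mul_eq_one_right hxx
    have hu : (d * v) * d' * (d * v)⁻¹ ∈ D := hconj _ d' hd'
    have hw : (d * v) * v' * (d * v)⁻¹ ∈ D := hconj _ v' hv'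
    have hud' : Commute ((d * v) * d' * (d * v)⁻¹) d' := by
      have e1 : (d * v) * d' * (d * v)⁻¹ = φ ((Equiv.swap 0 1 * Equiv.swap 2 3) * Equiv.swap 1 2 *
          (Equiv.swap 0 1 * Equiv.swap 2 3)⁻¹) := by
        simp only [map_mul, map_inv, h01, h12, h23]
      rw [e1, ← h12]
      show φ _ * φ _ = φ _ * φ _
      rw [← map_mul, ← map_mul]
      exact congrArg φ (by decide)
    have hsc : SameComm D ((d * v) * d' * (d * v)⁻¹) ((d * v) * v' * (d * v)⁻¹) :=
      sameComm_conj hconj h' (d * v)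
    have huv' : Commute ((d * v) * d' * (d * v)⁻¹) v' := ((h' _ hu).2 hud'.symm).symm
    have hwd' : Commute ((d * v) * v' * (d * v)⁻¹) d' := (hsc d' hd').2 hud'
    have hwv' : Commute ((d * v) * v' * (d * v)⁻¹) v' := (hsc v' hv').2 huv'
    have huw : Commute ((d * v) * d' * (d * v)⁻¹) ((d * v) * v' * (d * v)⁻¹) :=
      commute_conj (d * v) hcd'v'
    have e2 : ((d * v) * (d' * v')) ^ 2 =
        ((d * v) * d' * (d * v)⁻¹ * ((d * v) * v' * (d * v)⁻¹)) * (d' * v') := by
      calc ((d * v) * (d' * v')) ^ 2 = (d * v) * (d' * v') * ((d * v) * (d' * v')) := pow_two _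
        _ = (d * v) * (d' * v') * ((d * v)⁻¹ * (d' * v')) := by rw [hxinv]
        _ = _ := by group
    have hcomm : Commute ((d * v) * d' * (d * v)⁻¹ * ((d * v) * v' * (d * v)⁻¹)) (d' * v') :=
      (hud'.mul_right huv').mul_left (hwd'.mul_right hwv')
    have huu := sq_of_mem h3 hu
    have hww := sq_of_mem h3 hw
    rw [show (4 : ℕ) = 2 * 2 from rfl, pow_mul, e2, hcomm.mul_pow, pow_two, pow_two,
      sq_of_commute huu hww huw, hyy, one_mul]

theorem coset_commute (N : Subgroup G) [N.Normal] (hN : IsPGroup 2 N) {D : Set G}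
    (h3 : IsThreeTranspositionSet D) {d v e : G} (hd : d ∈ D) (hv : v ∈ D) (he : e ∈ D)
    (hdv : d⁻¹ * v ∈ N) (hc : Commute d e) : Commute v e := by
  have hdd := sq_of_mem h3 hd
  have hvv := sq_of_mem h3 hv
  have hee := sq_of_mem h3 he
  rcases h3.2 v hv e he with h2 | h2
  · exact commute_of_sq hvv hee h2
  · have hdi : d⁻¹ = d := inv_eq_of_mul_eq_one_right hdd
    have hei : e⁻¹ = e := inv_eq_of_mul_eq_one_right hee
    have hmem : (v * e) ^ 2 ∈ N := by
      have e1 : (v * e) ^ 2 = (d * (d⁻¹ * v) * d⁻¹) * (e * (d⁻¹ * v) * e⁻¹) := by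
        rw [pow_two, hei]
        have hde : d * e = e * d := hc.eq
        have h1 : d * e * d = e := by rw [hde, mul_assoc, hdd, mul_one]
        calc v * e * (v * e) = v * (d * e * d) * v * e := by rw [h1]; group
          _ = d * d * v * d * e * d * v * e := by rw [hdd]; group
          _ = d * (d⁻¹ * v) * d⁻¹ * (e * (d⁻¹ * v) * e) := by rw [hdi]; group
      rw [e1]
      exact N.mul_mem (Subgroup.Normal.conj_mem inferInstance _ hdv d)
        (Subgroup.Normal.conj_mem inferInstance _ hdv e)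
    obtain ⟨k, hk⟩ := hN ⟨(v * e) ^ 2, hmem⟩
    have hk' : ((v * e) ^ 2) ^ (2 ^ k) = 1 := by
      have := congrArg Subtype.val hk
      rwa [Subgroup.coe_pow] at this
    have h33 : ((v * e) ^ 2) ^ 3 = 1 := by
      rw [← pow_mul, mul_comm, pow_mul, h2, one_pow]
    have ho : orderOf ((v * e) ^ 2) = 1 :=
      Nat.eq_one_of_dvd_coprimes (Nat.Coprime.pow_left k (by decide : Nat.Coprime 2 3))
        (orderOf_dvd_of_pow_eq_one hk') (orderOf_dvd_of_pow_eq_one h33)
    rw [orderOf_eq_one_iff] at ho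
    exact commute_of_sq hvv hee ho

theorem coset_sameComm (N : Subgroup G) [N.Normal] (hN : IsPGroup 2 N) {D : Set G}
    (h3 : IsThreeTranspositionSet D) {d v : G} (hd : d ∈ D) (hv : v ∈ D)
    (hdv : d⁻¹ * v ∈ N) : SameComm D d v := by
  intro e he
  constructor
  · intro hc
    have h1 : v⁻¹ * d ∈ N := by
      have := N.inv_mem hdv
      rwa [mul_inv_rev, inv_inv] at this
    exact coset_commute N hN h3 hv hd he h1 hc
  · intro hc
    exact coset_commute N hN h3 hd hv he hdv hc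

theorem sameComm_mem_pCore [Finite G] {D : Set G} (h3 : IsThreeTranspositionSet D)
    (hconj : ∀ g : G, ∀ d ∈ D, g * d * g⁻¹ ∈ D) {d v : G} (hd : d ∈ D) (hv : v ∈ D)
    (h : SameComm D d v) : d⁻¹ * v ∈ pCore 2 G := by
  by_cases hdv : v = d
  · rw [hdv, inv_mul_cancel]; exact one_mem _
  have hdd := sq_of_mem h3 hd
  have hvv := sq_of_mem h3 hv
  have hdi : d⁻¹ = d := inv_eq_of_mul_eq_one_right hdd
  have hcdv : Commute d v := ((h d hd).2 (Commute.refl d)).symm
  have hxx : (d * v) * (d * v) = 1 := sq_of_commute hdd hvv hcdv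
  have hx1 : d * v ≠ 1 := by
    intro h1
    apply hdv
    have : v = d⁻¹ := (inv_eq_of_mul_eq_one_right h1).symm
    rw [this, hdi]
  have hord : orderOf (d * v) = 2 := orderOf_eq_prime (by rw [pow_two]; exact hxx) hx1
  rw [hdi]
  by_contra hx
  obtain ⟨t, ht1, hodd, hinv⟩ := Cfsg.Agent.Helper21.exists_inverted_of_involution (d * v) hord
    (fun N hNn hNp hxN => hx ((le_sSup (show N ∈ {N : Subgroup G | N.Normal ∧ IsPGroup 2 N} from
      ⟨hNn, hNp⟩) : N ≤ pCore 2 G) hxN))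
  have hxinv : (d * v)⁻¹ = d * v := inv_eq_of_mul_eq_one_right hxx
  have h4 := sameComm_prod_pow_four h3 hconj hd hv (hconj t d hd) (hconj t v hv) hdv h
    (sameComm_conj hconj h t)
  have e1 : (d * v) * (t * d * t⁻¹ * (t * v * t⁻¹)) = t⁻¹ * t⁻¹ := by
    calc (d * v) * (t * d * t⁻¹ * (t * v * t⁻¹)) = ((d * v) * t * (d * v)) * t⁻¹ := by group
      _ = ((d * v) * t * (d * v)⁻¹) * t⁻¹ := by rw [hxinv]
      _ = t⁻¹ * t⁻¹ := by rw [hinv]
  rw [e1] at h4
  have h8 : t ^ 8 = 1 := by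
    have h5 : (t⁻¹ * t⁻¹) ^ 4 = (t ^ 8)⁻¹ := by group
    rw [h5] at h4
    exact inv_eq_one.1 h4
  have ho : orderOf t ∣ 8 := orderOf_dvd_of_pow_eq_one h8
  have ho1 : orderOf t = 1 := by
    have h2 : orderOf t ∣ 2 ^ 3 := ho
    obtain ⟨j, -, hj⟩ := (Nat.dvd_prime_pow Nat.prime_two).1 h2
    rcases Nat.eq_zero_or_pos j with h0 | hpos
    · rw [hj, h0, pow_zero]
    · exfalso
      rw [hj] at hodd
      exact (Nat.not_even_iff_odd.2 hodd) (Nat.even_pow.2 ⟨even_two, hpos.ne'⟩)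
  exact ht1 (orderOf_eq_one_iff.1 ho1)

end Cfsg.Agent.Helper27
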